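import Cfsg.Agent.H58.ExtField.Field
import Cfsg.Agent.H97.Semisimple

/-!
# Elements normalising a field of matrices
-/

set_option autoImplicit false
set_option linter.unusedSectionVars false
set_option linter.style.haveILetI false

namespace Cfsg.Agent.H98.ExtEl

open Module
open scoped Matrix
open Cfsg.Geo (IsFieldSubalgebra subalgebraNormalizer)
open Cfsg.Agent.H58.ExtField

variable {ι : Type} [Fintype ι] [DecidableEq ι] {F : Type*} [Field F] [Fintype F]

/-- The operator of an invertible matrix. -/
abbrev gop (g : GL ι F) : End F (ι → F) := Matrix.toLin' (g : Matrix ι ι F)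

theorem gop_mul (g h : GL ι F) : gop (g * h) = gop g * gop h := by
  simp [gop, Module.End.mul_eq_comp, Matrix.toLin'_mul]

theorem gop_one : gop (1 : GL ι F) = 1 := by simp [gop, Module.End.one_eq_id]

theorem gop_pow (g : GL ι F) (n : ℕ) : gop (g ^ n) = gop g ^ n := by
  induction n with
  | zero => simp [gop_one]
  | succ n ih => rw [pow_succ, pow_succ, gop_mul, ih]

theorem gop_inj {g h : GL ι F} (e : gop g = gop h) : g = h :=
  Units.ext (Matrix.toLin'.injective e)

theorem gop_inv_apply (g : GL ι F) (v : ι → F) : gop g⁻¹ (gop g v) = v := by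
  rw [← Module.End.mul_apply, ← gop_mul, inv_mul_cancel, gop_one, Module.End.one_apply]

theorem gop_apply_inv (g : GL ι F) (v : ι → F) : gop g (gop g⁻¹ v) = v := by
  rw [← Module.End.mul_apply, ← gop_mul, mul_inv_cancel, gop_one, Module.End.one_apply]

/-- The element of `GL` of a bijective operator. -/
theorem exists_gl (f : End F (ι → F)) (h : Function.Injective f) : ∃ g : GL ι F, gop g = f := by
  have hf : LinearMap.det f ≠ 0 := fun h0 => by
    obtain ⟨v, hv, hv0⟩ := (Submodule.ne_bot_iff _).1 (LinearMap.bot_lt_ker_of_det_eq_zero h0).ne'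
    exact hv0 (h (hv.trans (map_zero f).symm))
  exact ⟨Matrix.GeneralLinearGroup.mkOfDetNeZero (LinearMap.toMatrix' f)
    (by rw [LinearMap.det_toMatrix']; exact hf), Matrix.toLin'_toMatrix' f⟩

/-- Conjugates move subspaces of the same dimension. -/
theorem finrank_moved_conj (g x : GL ι F) :
    finrank F (H97.movedSpace (gop (g⁻¹ * x * g))) = finrank F (H97.movedSpace (gop x)) := by
  let e : (ι → F) ≃ₗ[F] (ι → F) := LinearEquiv.ofLinear (gop g⁻¹) (gop g)
    (LinearMap.ext fun v => gop_inv_apply g v) (LinearMap.ext fun v => gop_apply_inv g v)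
  have h : gop (g⁻¹ * x * g) - 1 = e.conj (gop x - 1) := LinearMap.ext fun v => by
    rw [gop_mul, gop_mul, LinearEquiv.conj_apply_apply, LinearMap.sub_apply, LinearMap.sub_apply,
      Module.End.one_apply, map_sub, Module.End.one_apply, Module.End.mul_apply, Module.End.mul_apply]
    show gop g⁻¹ (gop x (gop g v)) - v = gop g⁻¹ (gop x (gop g v)) - gop g⁻¹ (gop g v)
    rw [gop_inv_apply]
  rw [H97.movedSpace, H97.movedSpace, h, LinearEquiv.conj_apply, LinearMap.range_comp, LinearEquiv.range,
    Submodule.map_top, LinearMap.range_comp]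
  exact (LinearEquiv.finrank_map_eq e _)

section Field

variable {E : Type*} [Field E] [Fintype E] [Algebra F E] [Module E (ι → F)] [IsScalarTower F E (ι → F)]

/-- Stable subspaces have dimension divisible by the degree. -/
theorem dvd_finrank_stable {W : Submodule F (ι → F)} (hW : ∀ (a : E) (w : ι → F), w ∈ W → a • w ∈ W) :
    finrank F E ∣ finrank F W := by
  let W' : Submodule E (ι → F) :=
    { carrier := W, add_mem' := W.add_mem', zero_mem' := W.zero_mem', smul_mem' := fun a w hw => hW a w hw }
  have e : finrank F W = finrank F W' := rfl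
  rw [e]
  exact ⟨_, (Module.finrank_mul_finrank F E W').symm⟩

/-- The moved space of a linear map is stable. -/
theorem smul_mem_moved {g : GL ι F} (hg : ∀ (a : E) (v : ι → F), gop g (a • v) = a • gop g v) (a : E) (w : ι → F)
    (hw : w ∈ H97.movedSpace (gop g)) : a • w ∈ H97.movedSpace (gop g) := by
  obtain ⟨y, rfl⟩ := hw
  exact ⟨a • y, by rw [LinearMap.sub_apply, LinearMap.sub_apply, Module.End.one_apply, Module.End.one_apply, hg, smul_sub]⟩

/-- A semilinear map fixes at most one `k`-th of the space. -/
theorem semilinear_fixed_le (hk : (finrank F E).Prime) {g : End F (ι → F)} {τ : E ≃ₐ[F] E} (hτ : τ ≠ 1)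
    (hg : ∀ (a : E) (v : ι → F), g (a • v) = τ a • g v) :
    finrank F E * finrank F (H97.fixedSpace g) ≤ finrank F (ι → F) := by
  haveI : Module.Finite E (ι → F) := Module.Finite.of_finite
  haveI : Module.Finite F E := Module.Finite.of_finite
  have hfix : ∀ a : E, τ a = a → a ∈ Set.range (algebraMap F E) := by
    intro a ha
    haveI := Subalgebra.isSimpleOrder_of_finrank_prime F E hk
    let L : Subalgebra F E := AlgHom.equalizer (τ : E →ₐ[F] E) (AlgHom.id F E)
    rcases eq_bot_or_eq_top L with h | h
    · have : a ∈ L := ha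
      rw [h] at this
      exact Algebra.mem_bot.1 this
    · refine absurd (AlgEquiv.ext fun x => ?_) hτ
      have : x ∈ L := h ▸ Algebra.mem_top
      exact this
  let S := H97.fixedSpace g
  let b := Module.finBasis F S
  have key : ∀ s : Finset (Fin (finrank F S)), ∀ c : Fin (finrank F S) → E,
      ∑ i ∈ s, c i • (b i : ι → F) = 0 → ∀ i ∈ s, c i = 0 := by
    intro s
    induction s using Finset.induction_on with
    | empty => intro c _ i hi; exact absurd hi (Finset.notMem_empty i)
    | insert j s hj ih =>
      intro c hc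
      have hzero : c j = 0 := by
        by_contra hcj
        set d : Fin (finrank F S) → E := fun i => (c j)⁻¹ * c i with hd
        have hd1 : ∑ i ∈ insert j s, d i • (b i : ι → F) = 0 := by
          rw [← smul_zero ((c j)⁻¹), ← hc, Finset.smul_sum]
          exact Finset.sum_congr rfl fun i _ => by rw [hd, smul_smul]
        have hd2 : ∑ i ∈ insert j s, τ (d i) • (b i : ι → F) = 0 := by
          rw [← map_zero g, ← hd1, map_sum]
          refine Finset.sum_congr rfl fun i _ => ?_
          rw [hg, H97.mem_fixedSpace.1 (b i).2]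
        have hdj : d j = 1 := inv_mul_cancel₀ hcj
        have hd3 : ∀ i ∈ s, τ (d i) - d i = 0 := ih (fun i => τ (d i) - d i) (by
          rw [Finset.sum_insert hj, hdj] at hd1
          rw [Finset.sum_insert hj, hdj, map_one] at hd2
          simp only [sub_smul, Finset.sum_sub_distrib]
          rw [sub_eq_zero]
          exact add_left_cancel (hd2.trans hd1.symm))
        have hFd : ∀ i ∈ insert j s, ∃ f : F, algebraMap F E f = d i := by
          intro i hi
          rcases Finset.mem_insert.1 hi with rfl | hi
          · exact ⟨1, by rw [map_one, hdj]⟩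
          · exact hfix _ (sub_eq_zero.1 (hd3 i hi))
        choose f hf using hFd
        let F' : Fin (finrank F S) → F := fun i => if h : i ∈ insert j s then f i h else 0
        have hF1 : ∀ i ∈ insert j s, d i = algebraMap F E (F' i) := fun i hi => by
          simp only [F', dif_pos hi, hf]
        have h0 : ∑ i ∈ insert j s, F' i • b i = 0 := Subtype.ext (by
          rw [Submodule.coe_sum, Submodule.coe_zero, ← hd1]
          refine Finset.sum_congr rfl fun i hi => ?_
          rw [Submodule.coe_smul, hF1 i hi, algebraMap_smul])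
        have := linearIndependent_iff'.1 b.linearIndependent _ _ h0 j (Finset.mem_insert_self j s)
        have h1 := hF1 j (Finset.mem_insert_self j s)
        rw [this, map_zero, hdj] at h1
        exact one_ne_zero h1
      rw [Finset.sum_insert hj, hzero, zero_smul, zero_add] at hc
      intro i hi
      rcases Finset.mem_insert.1 hi with rfl | hi
      · exact hzero
      · exact ih c hc i hi
  have hli : LinearIndependent E fun i => (b i : ι → F) :=
    linearIndependent_iff'.2 fun s c hc => key s c hc
  rw [← Module.finrank_mul_finrank F E (ι → F)]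
  exact Nat.mul_le_mul_left _ (by simpa using hli.fintype_card_le_finrank)

/-- A non-trivial automorphism of prime order has the degree as order. -/
theorem order_eq_degree (hk : (finrank F E).Prime) {r : ℕ} [Fact r.Prime] {τ : E ≃ₐ[F] E} (hτr : τ ^ r = 1)
    (h1 : τ ≠ 1) : r = finrank F E := by
  haveI : FiniteDimensional F E := Module.Finite.of_finite
  have h2 : orderOf τ ∣ Nat.card (E ≃ₐ[F] E) := orderOf_dvd_natCard τ
  rw [orderOf_eq_prime hτr h1, IsGalois.card_aut_eq_finrank] at h2
  exact (Nat.prime_dvd_prime_iff_eq Fact.out hk).1 h2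

/-- The conjugation of a quadratic extension. -/
theorem exists_conjugation (hk : finrank F E = 2) : ∃ τ : E ≃ₐ[F] E, τ ≠ 1 ∧ ∀ a, τ (τ a) = a := by
  haveI : FiniteDimensional F E := Module.Finite.of_finite
  have hc : Nat.card (E ≃ₐ[F] E) = 2 := by rw [IsGalois.card_aut_eq_finrank, hk]
  obtain ⟨τ, hτ⟩ : ∃ τ : E ≃ₐ[F] E, τ ≠ 1 := by
    by_contra hall
    push Not at hall
    haveI : Subsingleton (E ≃ₐ[F] E) := ⟨fun a b => by rw [hall a, hall b]⟩
    rw [Nat.card_of_subsingleton (1 : E ≃ₐ[F] E)] at hc
    omega
  refine ⟨τ, hτ, fun a => ?_⟩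
  have h2 : τ ^ 2 = 1 := by rw [← hc]; exact pow_card_eq_one'
  exact DFunLike.congr_fun h2 a

end Field

variable [Nonempty ι] {k : ℕ} {K : Subalgebra F (Matrix ι ι F)}

/-- Normalising elements are semilinear. -/
theorem exists_semilinear (hK : IsFieldSubalgebra k K) {g : GL ι F} (hg : g ∈ subalgebraNormalizer K) :
    ∃ τ : FK hK ≃ₐ[F] FK hK, ∀ (a : FK hK) (v : ι → F), gop g (a • v) = τ a • gop g v := by
  haveI : Module.Finite F (FK hK) := Module.Finite.of_finite
  have hmem : ∀ a : FK hK, (g : Matrix ι ι F) * a.mat * ((g⁻¹ : GL ι F) : Matrix ι ι F) ∈ K := fun a =>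
    (hg a.mat).1 (a : ↥K).2
  let φ : FK hK → FK hK := fun a => FK.mk hK _ (hmem a)
  have hφ : ∀ a, (φ a).mat = (g : Matrix ι ι F) * a.mat * ((g⁻¹ : GL ι F) : Matrix ι ι F) := fun a => rfl
  have hext : ∀ {a b : FK hK}, a.mat = b.mat → a = b := fun h => Subtype.ext h
  have hone : FK.mat (1 : FK hK) = 1 := rfl
  let Φ : FK hK →ₐ[F] FK hK :=
    { toFun := φ
      map_one' := hext (by rw [hφ, hone, mul_one, ← Units.val_mul, mul_inv_cancel, Units.val_one])
      map_mul' := fun a b => hext (by
        show (φ (a * b)).mat = (φ a).mat * (φ b).mat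
        rw [hφ, hφ, hφ, show (a * b).mat = a.mat * b.mat from rfl]
        simp only [mul_assoc, ← mul_assoc ((g⁻¹ : GL ι F) : Matrix ι ι F) (g : Matrix ι ι F), ← Units.val_mul,
          inv_mul_cancel, Units.val_one, one_mul])
      map_zero' := hext (by rw [hφ, show FK.mat (0 : FK hK) = 0 from rfl, mul_zero, zero_mul])
      map_add' := fun a b => hext (by
        show (φ (a + b)).mat = (φ a).mat + (φ b).mat
        rw [hφ, hφ, hφ, show (a + b).mat = a.mat + b.mat from rfl, mul_add, add_mul])
      commutes' := fun c => hext (by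
        rw [Algebra.algebraMap_eq_smul_one, hφ, FK.mat_smul, hone, mul_smul_comm, mul_one, smul_mul_assoc,
          ← Units.val_mul, mul_inv_cancel, Units.val_one]) }
  refine ⟨AlgEquiv.ofBijective Φ ((Finite.injective_iff_bijective).1 Φ.injective), fun a v => ?_⟩
  show Matrix.toLin' (g : Matrix ι ι F) (a • v) = φ a • Matrix.toLin' (g : Matrix ι ι F) v
  rw [FK.smul_eq, FK.smul_eq, hφ, Matrix.toLin'_apply, Matrix.toLin'_apply, Matrix.mulVec_mulVec,
    Matrix.mulVec_mulVec, mul_assoc _ _ (g : Matrix ι ι F), ← Units.val_mul, inv_mul_cancel, Units.val_one,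
    mul_one]

/-- An element of prime order normalising the field is linear unless the order is the degree. -/
theorem linear_or_semilinear (hk : k.Prime) (hK : IsFieldSubalgebra k K) {r : ℕ} [Fact r.Prime] {g : GL ι F}
    (hg : g ∈ subalgebraNormalizer K) (hgr : g ^ r = 1) :
    (∀ (a : FK hK) (v : ι → F), gop g (a • v) = a • gop g v) ∨
      (r = k ∧ k * finrank F (H97.fixedSpace (gop g)) ≤ Fintype.card ι) := by
  haveI : Module.Finite F (FK hK) := Module.Finite.of_finite
  obtain ⟨τ, hτ⟩ := exists_semilinear hK hg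
  by_cases h1 : τ = 1
  · exact Or.inl fun a v => by rw [hτ, h1]; rfl
  refine Or.inr ⟨?_, ?_⟩
  · have hpow : ∀ (m : ℕ) (a : FK hK) (v : ι → F), gop (g ^ m) (a • v) = (τ ^ m) a • gop (g ^ m) v := by
      intro m
      induction m with
      | zero => intro a v; simp [gop_one]
      | succ m ih => intro a v; rw [pow_succ' g, pow_succ' τ, gop_mul, Module.End.mul_apply, ih, hτ]; rfl
    obtain ⟨v, hv⟩ := exists_ne (0 : ι → F)
    have hτr : τ ^ r = 1 := AlgEquiv.ext fun a => by
      have h := hpow r a v
      rw [hgr, gop_one, Module.End.one_apply, Module.End.one_apply] at h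
      exact (smul_left_injective (FK hK) hv h).symm
    rw [order_eq_degree (by rw [FK.finrank_eq hK]; exact hk) hτr h1, FK.finrank_eq hK]
  · have h := semilinear_fixed_le (by rw [FK.finrank_eq hK]; exact hk) h1 hτ
    rwa [FK.finrank_eq hK, Module.finrank_fintype_fun_eq_card] at h

/-- Linear elements normalise the field. -/
theorem mem_normalizer_of_semilinear (hK : IsFieldSubalgebra k K) {g : GL ι F}
    (h : ∀ a : FK hK, ∃ b : FK hK, ∀ v : ι → F, gop g (a • v) = b • gop g v) : g ∈ subalgebraNormalizer K := by
  refine mem_normalizer_of_conj fun m hm => ?_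
  obtain ⟨b, hb⟩ := h (FK.mk hK m hm)
  have : (g : Matrix ι ι F) * m * ((g⁻¹ : GL ι F) : Matrix ι ι F) = b.mat := by
    refine Matrix.toLin'.injective (LinearMap.ext fun v => ?_)
    rw [Matrix.toLin'_mul, Matrix.toLin'_mul, LinearMap.comp_apply, LinearMap.comp_apply]
    show gop g (Matrix.toLin' m (gop g⁻¹ v)) = _
    have h1 := hb (gop g⁻¹ v)
    rw [gop_apply_inv, FK.smul_eq, FK.smul_eq] at h1
    simpa [Matrix.toLin'_apply, FK.mk, FK.mat] using h1
  rw [this]
  exact (b : ↥K).2

end Cfsg.Agent.H98.ExtEl
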