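import Cfsg.Agent.H98.ExtElusive.SpElements
import Cfsg.Agent.H97.SympInvolution
import Cfsg.Agent.H97.SympElements

/-!
# Symplectic classes of elements with square plus or minus one
-/

set_option autoImplicit false
set_option linter.unusedSectionVars false

namespace Cfsg.Agent.H98.ExtEl

open Module
open LinearMap (BilinForm)
open scoped Matrix

variable {F : Type*} [Field F] [Fintype F] {d : ℕ}

/-- An equivalence matching Gram matrices and actions gives a conjugating element. -/
theorem conj_of_equiv {x y : GL (Fin d ⊕ Fin d) F} (e : (Fin d ⊕ Fin d → F) ≃ₗ[F] (Fin d ⊕ Fin d → F))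
    (he : ∀ u v, H2.sympBilin d F (e u) (e v) = H2.sympBilin d F u v) (hxy : ∀ v, gop x (e v) = e (gop y v)) :
    ∃ h ∈ Cfsg.spGL d F, h⁻¹ * x * h = y := by
  obtain ⟨h, hh⟩ := exists_gl (e : End F (Fin d ⊕ Fin d → F)) e.injective
  refine ⟨h, mem_sp_of_gop fun u v => by rw [hh]; exact he u v, ?_⟩
  have : x * h = h * y := gop_inj (LinearMap.ext fun v => by
    rw [gop_mul, gop_mul, Module.End.mul_apply, Module.End.mul_apply, hh]; exact hxy v)
  rw [mul_assoc, this, inv_mul_cancel_left]

/-- Elements with square one are conjugate when their fixed spaces have the same dimension. -/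
theorem conj_sq_one (h2 : (2 : F) ≠ 0) {x y : GL (Fin d ⊕ Fin d) F} (hx : x ∈ Cfsg.spGL d F)
    (hy : y ∈ Cfsg.spGL d F) (hxx : gop x ^ 2 = 1) (hyy : gop y ^ 2 = 1)
    (hdim : finrank F (H97.fixedSpace (gop x)) = finrank F (H97.fixedSpace (gop y))) :
    ∃ h ∈ Cfsg.spGL d F, h⁻¹ * x * h = y := by
  haveI : Fact (Nat.Prime 2) := ⟨Nat.prime_two⟩
  have hr : ((2 : ℕ) : F) ≠ 0 := by exact_mod_cast h2
  have hA := H2.sympBilin_isAlt d F
  set B := H2.sympBilin d F with hBdef
  have hnd : H97.NondegOn B (⊤ : Submodule F (Fin d ⊕ Fin d → F)) :=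
    fun v _ h => (H2.sympBilin_nondegenerate d F).1 v fun w => h w Submodule.mem_top
  have hneg : ∀ {g : GL (Fin d ⊕ Fin d) F}, gop g ^ 2 = 1 → ∀ v ∈ H97.movedSpace (gop g), gop g v = -v := by
    rintro g hg _ ⟨v, rfl⟩
    have := LinearMap.congr_fun hg v
    rw [sq, Module.End.mul_apply, Module.End.one_apply] at this
    rw [LinearMap.sub_apply, Module.End.one_apply, map_sub, this, neg_sub]
  obtain ⟨hxf, hxm⟩ := H97.nondegOn_fixed_moved (r := 2) B hA.isRefl hnd hr (gop x) hxx (sp_gop hx)
  obtain ⟨hyf, hym⟩ := H97.nondegOn_fixed_moved (r := 2) B hA.isRefl hnd hr (gop y) hyy (sp_gop hy)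
  have hcx := H97.isCompl_fixed_moved (r := 2) hr (gop x) hxx
  have hcy := H97.isCompl_fixed_moved (r := 2) hr (gop y) hyy
  have hdm : finrank F (H97.movedSpace (gop x)) = finrank F (H97.movedSpace (gop y)) := by
    have := Submodule.finrank_add_eq_of_isCompl hcx
    have := Submodule.finrank_add_eq_of_isCompl hcy
    omega
  have piece : ∀ (U W : Submodule F (Fin d ⊕ Fin d → F)), H97.NondegOn B U → H97.NondegOn B W →
      finrank F U = finrank F W → ∃ e : U ≃ₗ[F] W, ∀ a b : U, B (e a : Fin d ⊕ Fin d → F) (e b) = B a b := by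
    intro U W hU hW hUW
    obtain ⟨m, eU, hm, hU'⟩ := H2.exists_equiv_std (B.restrict U) (hU.restrict hA) fun v => hA (v : _)
    obtain ⟨m', eW, hm', hW'⟩ := H2.exists_equiv_std (B.restrict W) (hW.restrict hA) fun v => hA (v : _)
    obtain rfl : m = m' := by omega
    refine ⟨eU.trans eW.symm, fun a b => ?_⟩
    have h := hW' (eW.symm (eU a)) (eW.symm (eU b))
    rw [eW.apply_symm_apply, eW.apply_symm_apply, hU'] at h
    exact h.symm
  obtain ⟨e₁, he₁⟩ := piece _ _ hyf hxf hdim.symm
  obtain ⟨e₂, he₂⟩ := piece _ _ hym hxm hdm.symm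
  let Py := Submodule.prodEquivOfIsCompl _ _ hcy
  let Px := Submodule.prodEquivOfIsCompl _ _ hcx
  let e := (Py.symm.trans (e₁.prodCongr e₂)).trans Px
  have he : ∀ a b, e (Py (a, b)) = (e₁ a : Fin d ⊕ Fin d → F) + e₂ b := fun a b => by
    show Px ((e₁.prodCongr e₂) (Py.symm (Py (a, b)))) = _
    rw [Py.symm_apply_apply]
    rfl
  refine conj_of_equiv e (fun u v => ?_) fun v => ?_
  · obtain ⟨⟨a, b⟩, rfl⟩ := Py.surjective u
    obtain ⟨⟨a', b'⟩, rfl⟩ := Py.surjective v
    rw [he, he]
    show B _ _ = B ((a : Fin d ⊕ Fin d → F) + b) ((a' : Fin d ⊕ Fin d → F) + b')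
    have o1 := H97.fixed_orth_moved B (gop x) (sp_gop hx)
    have o2 := H97.fixed_orth_moved B (gop y) (sp_gop hy)
    simp only [map_add, LinearMap.add_apply, he₁, he₂, o1 _ (e₁ a).2 _ (e₂ b').2,
      hA.isRefl _ _ (o1 _ (e₁ a').2 _ (e₂ b).2), o2 _ a.2 _ b'.2, hA.isRefl _ _ (o2 _ a'.2 _ b.2)]
  · obtain ⟨⟨a, b⟩, rfl⟩ := Py.surjective v
    have h1 : gop y (Py (a, b)) = Py (a, -b) := by
      show gop y ((a : Fin d ⊕ Fin d → F) + b) = (a : Fin d ⊕ Fin d → F) + (-b : H97.movedSpace (gop y))
      rw [map_add, H97.mem_fixedSpace.1 a.2, hneg hyy _ b.2]; rfl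
    rw [h1, he, he, map_add, H97.mem_fixedSpace.1 (e₁ a).2, hneg hxx _ (e₂ b).2, map_neg]
    rfl

/-- The standard basis for an isometry with square minus one. -/
theorem exists_neg_basis (h2 : (2 : F) ≠ 0) {x : GL (Fin d ⊕ Fin d) F} (hx : x ∈ Cfsg.spGL d F)
    (hxx : gop x ^ 2 = (-1 : F) • 1) :
    ∃ v : Fin d → (Fin d ⊕ Fin d → F), (∀ i j, H2.sympBilin d F (v i) (v j) = 0) ∧
      ∀ i j, H2.sympBilin d F (v i) (gop x (v j)) = if i = j then 1 else 0 := by
  have hA := H2.sympBilin_isAlt d F
  set B := H2.sympBilin d F with hBdef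
  set T := gop x
  have hTT : ∀ v, T (T v) = -v := fun v => by
    have := LinearMap.congr_fun hxx v
    rw [sq, Module.End.mul_apply, LinearMap.smul_apply, Module.End.one_apply, neg_one_smul] at this
    exact this
  have hBT : ∀ u v, B (T u) (T v) = B u v := sp_gop hx
  have hcross : ∀ u v, B (T u) v = -B u (T v) := fun u v => by
    rw [← hBT u (T v), hTT, map_neg, neg_neg]
  let C : Submodule F (Fin d ⊕ Fin d → F) → Prop := fun P => ∃ (l : ℕ) (v : Fin l → (Fin d ⊕ Fin d → F)),
    finrank F P = 2 * l ∧ (∀ i, v i ∈ P ∧ T (v i) ∈ P) ∧ (∀ i j, B (v i) (v j) = 0) ∧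
      ∀ i j, B (v i) (T (v j)) = if i = j then 1 else 0
  have hnd : H97.NondegOn B (⊤ : Submodule F (Fin d ⊕ Fin d → F)) :=
    fun v _ h => (H2.sympBilin_nondegenerate d F).1 v fun w => h w Submodule.mem_top
  have hne1 : (-1 : F) ≠ 1 := fun h => h2 (by linear_combination -h)
  obtain ⟨l, v, hl, -, h1, h3⟩ : C ⊤ := by
    refine H97.sympSquare_induction B hA T hBT (-1) (neg_ne_zero.2 one_ne_zero)
      (fun v => by rw [hTT, neg_one_smul]) C
      ⟨0, fun i => i.elim0, by rw [finrank_bot], fun i => i.elim0, fun i => i.elim0, fun i => i.elim0⟩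
      ?_ ?_ (fun u w h _ _ _ _ h1 => absurd h1 hne1) ?_ ⊤ (fun _ _ => Submodule.mem_top) hnd
    · intro u w c huw hu hw
      exfalso
      have hcc : c * c = -1 := by
        have := hTT u
        rw [hu, map_smul, hu, smul_smul, ← neg_one_smul F u] at this
        have h0 : u ≠ 0 := fun h => by simp [h] at huw
        exact smul_left_injective F h0 this
      have := hBT u w
      rw [hu, hw, map_smul, map_smul, LinearMap.smul_apply, smul_eq_mul, smul_eq_mul, huw] at this
      exact hne1 (by linear_combination this - hcc)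
    · intro v hv
      set β := B v (T v) with hβ
      obtain ⟨a, b, hab⟩ := FiniteField.exists_root_sum_quadratic (R := F)
        (f := Polynomial.X ^ 2) (g := Polynomial.X ^ 2 - Polynomial.C β⁻¹) (Polynomial.degree_X_pow 2)
        (Polynomial.degree_X_pow_sub_C two_pos _)
        (by
          have hF2 : ringChar F ≠ 2 := fun h => h2 (by
            haveI := ringChar.of_eq h
            exact_mod_cast CharP.cast_eq_zero F 2)
          exact Nat.odd_iff.1 (FiniteField.odd_card_of_char_ne_two hF2 |> Nat.odd_iff.2))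
      simp only [Polynomial.eval_pow, Polynomial.eval_X, Polynomial.eval_sub, Polynomial.eval_C] at hab
      have hspan : Submodule.span F {v, T v} ≤ Submodule.span F {v, T v} := le_rfl
      refine ⟨1, fun _ => a • v + b • T v, ?_, fun _ => ⟨H97.mem_span_pair'.2 ⟨a, b, rfl⟩,
        H97.mem_span_pair'.2 ⟨-b, a, by rw [map_add, map_smul, map_smul, hTT]; module⟩⟩,
        fun i j => hA _, fun i j => ?_⟩
      · have hli : LinearIndependent F ![v, T v] := by
          rw [LinearIndependent.pair_iff]
          intro s t hst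
          have e1 := congrArg (fun z => B v z) hst
          have e2 := congrArg (fun z => B z (T v)) hst
          simp only [map_add, map_smul, LinearMap.add_apply, LinearMap.smul_apply, smul_eq_mul, hA v,
            hA (T v), mul_zero, zero_add, add_zero, map_zero, LinearMap.zero_apply, mul_eq_zero,
            ← hβ, hv, or_false] at e1 e2
          exact ⟨e2, e1⟩
        have := finrank_span_eq_card hli
        rw [Fintype.card_fin, Matrix.range_cons, Matrix.range_cons, Matrix.range_empty,
          Set.union_empty, Set.singleton_union] at this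
        rw [this]
      · rw [if_pos (Subsingleton.elim i j)]
        show B (a • v + b • T v) (T (a • v + b • T v)) = 1
        simp only [map_add T, map_smul T, hTT]
        simp only [map_add, map_smul, map_neg, LinearMap.add_apply, LinearMap.smul_apply, smul_eq_mul, hA v,
          hA (T v), ← hA.neg_eq v (T v), ← hβ]
        have h4 : (a ^ 2 + b ^ 2) * β = 1 := by
          rw [show a ^ 2 + b ^ 2 = β⁻¹ by linear_combination hab, inv_mul_cancel₀ hv]
        linear_combination h4
    · rintro P Q ⟨l, v, hl, hvP, h1, h3⟩ ⟨l', v', hl', hvQ, h1', h3'⟩ hd' ho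
      refine ⟨l + l', Fin.append v v', ?_, fun i => ?_, fun i j => ?_, fun i j => ?_⟩
      · have := Submodule.finrank_sup_add_finrank_inf_eq P Q
        rw [hd'.eq_bot, finrank_bot] at this
        omega
      · induction i using Fin.addCases with
        | left i => simp [Fin.append_left, Submodule.mem_sup_left, (hvP i).1, (hvP i).2]
        | right i => simp [Fin.append_right, Submodule.mem_sup_right, (hvQ i).1, (hvQ i).2]
      · induction i using Fin.addCases with
        | left i =>
          induction j using Fin.addCases with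
          | left j => simp only [Fin.append_left, h1]
          | right j => simp only [Fin.append_left, Fin.append_right, ho _ (hvP i).1 _ (hvQ j).1]
        | right i =>
          induction j using Fin.addCases with
          | left j =>
            simp only [Fin.append_left, Fin.append_right]
            exact hA.isRefl _ _ (ho _ (hvP j).1 _ (hvQ i).1)
          | right j => simp only [Fin.append_right, h1']
      · induction i using Fin.addCases with
        | left i =>
          induction j using Fin.addCases with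
          | left j => simp only [Fin.append_left, h3, (Fin.castAdd_injective l l').eq_iff]
          | right j =>
            simp only [Fin.append_left, Fin.append_right, ho _ (hvP i).1 _ (hvQ j).2]
            rw [if_neg (fun h => by have := congrArg Fin.val h; simp at this; omega)]
        | right i =>
          induction j using Fin.addCases with
          | left j =>
            simp only [Fin.append_left, Fin.append_right]
            rw [hA.isRefl _ _ (ho _ (hvP j).2 _ (hvQ i).1),
              if_neg (fun h => by have := congrArg Fin.val h; simp at this; omega)]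
          | right j => simp only [Fin.append_right, h3', (Fin.natAdd_injective l' l).eq_iff]
  rw [finrank_top, finrank_V] at hl
  obtain rfl : l = d := by omega
  exact ⟨v, h1, h3⟩

/-- Elements with square minus one are conjugate. -/
theorem conj_sq_neg (h2 : (2 : F) ≠ 0) {x y : GL (Fin d ⊕ Fin d) F} (hx : x ∈ Cfsg.spGL d F)
    (hy : y ∈ Cfsg.spGL d F) (hxx : gop x ^ 2 = (-1 : F) • 1) (hyy : gop y ^ 2 = (-1 : F) • 1) :
    ∃ h ∈ Cfsg.spGL d F, h⁻¹ * x * h = y := by
  have hA := H2.sympBilin_isAlt d F
  set B := H2.sympBilin d F with hBdef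
  obtain ⟨v, hv1, hv3⟩ := exists_neg_basis h2 hx hxx
  obtain ⟨w, hw1, hw3⟩ := exists_neg_basis h2 hy hyy
  have hTT : ∀ {g : GL (Fin d ⊕ Fin d) F}, gop g ^ 2 = (-1 : F) • 1 → ∀ u, gop g (gop g u) = -u := fun hg u => by
    have := LinearMap.congr_fun hg u
    rw [sq, Module.End.mul_apply, LinearMap.smul_apply, Module.End.one_apply, neg_one_smul] at this
    exact this
  have hcross : ∀ {g : GL (Fin d ⊕ Fin d) F}, g ∈ Cfsg.spGL d F → gop g ^ 2 = (-1 : F) • 1 →
      ∀ u u', B (gop g u) u' = -B u (gop g u') := fun hg hgg u u' => by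
    rw [← sp_gop hg u (gop _ u'), hTT hgg, map_neg, neg_neg]
  let fam : GL (Fin d ⊕ Fin d) F → (Fin d → (Fin d ⊕ Fin d → F)) → Fin d ⊕ Fin d → (Fin d ⊕ Fin d → F) :=
    fun g u => Sum.elim u fun i => gop g (u i)
  have hli : ∀ (g : GL (Fin d ⊕ Fin d) F), g ∈ Cfsg.spGL d F → ∀ u : Fin d → (Fin d ⊕ Fin d → F),
      (∀ i j, B (u i) (u j) = 0) → (∀ i j, B (u i) (gop g (u j)) = if i = j then 1 else 0) →
      LinearIndependent F (fam g u) := fun g hg u h1 h3 =>
    H2.linearIndependent_symplectic_family B hA u _ h3 h1 fun i j => by rw [sp_gop hg]; exact h1 i j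
  let bx := basisOfLinearIndependentOfCardEqFinrank' (fam x v) (hli x hx v hv1 hv3)
    (by rw [finrank_V, Fintype.card_sum, Fintype.card_fin, two_mul])
  let byy := basisOfLinearIndependentOfCardEqFinrank' (fam y w) (hli y hy w hw1 hw3)
    (by rw [finrank_V, Fintype.card_sum, Fintype.card_fin, two_mul])
  have hbx : ∀ i, bx i = fam x v i := fun i => by simp [bx]
  have hby : ∀ i, byy i = fam y w i := fun i => by simp [byy]
  let e := byy.equiv bx (Equiv.refl _)
  have hew : ∀ i, e (fam y w i) = fam x v i := fun i => by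
    rw [← hby, ← hbx, Module.Basis.equiv_apply, Equiv.refl_apply]
  refine conj_of_equiv e (fun a b => ?_) fun a => ?_
  · suffices B.compl₁₂ (e : _ →ₗ[F] _) (e : _ →ₗ[F] _) = B from LinearMap.congr_fun (LinearMap.congr_fun this a) b
    refine LinearMap.ext_basis byy byy fun i j => ?_
    rw [LinearMap.compl₁₂_apply, LinearEquiv.coe_coe, hby, hby, hew, hew]
    rcases i with i | i <;> rcases j with j | j <;>
      simp only [hBdef] at * <;>
      simp only [fam, Sum.elim_inl, Sum.elim_inr, hv1, hw1, hv3, hw3, sp_gop hx, sp_gop hy, hcross hx hxx, hcross hy hyy]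
  · suffices gop x ∘ₗ (e : _ →ₗ[F] _) = (e : _ →ₗ[F] _) ∘ₗ gop y from LinearMap.congr_fun this a
    refine byy.ext fun i => ?_
    rw [LinearMap.comp_apply, LinearMap.comp_apply, LinearEquiv.coe_coe, hby, hew]
    rcases i with i | i
    · exact (hew (Sum.inr i)).symm
    · show gop x (gop x (v i)) = e (gop y (gop y (w i)))
      rw [hTT hxx, hTT hyy, map_neg]
      exact congrArg Neg.neg (hew (Sum.inl i)).symm

end Cfsg.Agent.H98.ExtEl
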