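import Cfsg.Agent.H98.ExtElusive.SympForm
import Cfsg.Agent.H98.FormPreserve.UWitness

/-!
# Hermitian forms over a quadratic field behind a symplectic space
-/

set_option autoImplicit false
set_option linter.unusedSectionVars false
set_option linter.style.haveILetI false

namespace Cfsg.Agent.H98.ExtEl

open Module
open LinearMap (BilinForm)
open scoped Matrix

variable {F : Type*} [Field F] [Fintype F] {d : ℕ}
variable {E : Type*} [Field E] [Fintype E] [Algebra F E]
  [Module E (Fin d ⊕ Fin d → F)] [IsScalarTower F E (Fin d ⊕ Fin d → F)]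

/-- An anti-self-adjoint element with square in the base field. -/
structure HermExt (δ : E) (a : F) : Prop where
  odd : (2 : F) ≠ 0
  sq : algebraMap F E a = δ * δ
  anti : ∀ x y : Fin d ⊕ Fin d → F, H2.sympBilin d F (δ • x) y = -H2.sympBilin d F x (δ • y)
  out : δ ∉ Set.range (algebraMap F E)
  degree : finrank F E = 2

variable {δ : E} {a : F}

theorem HermExt.coord_inj (H : HermExt (d := d) δ a) {x y x' y' : F}
    (h : algebraMap F E x + algebraMap F E y * δ = algebraMap F E x' + algebraMap F E y' * δ) :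
    x = x' ∧ y = y' := by
  have hy : y = y' := by
    by_contra hy
    refine H.out ⟨(x' - x) / (y - y'), ?_⟩
    have hne : algebraMap F E y - algebraMap F E y' ≠ 0 :=
      sub_ne_zero.2 fun e => hy ((algebraMap F E).injective e)
    rw [map_div₀, map_sub, map_sub, div_eq_iff hne]
    linear_combination -h
  exact ⟨(algebraMap F E).injective (by rw [hy] at h; exact add_right_cancel h), hy⟩

theorem HermExt.exists_coords (H : HermExt (d := d) δ a) (c : E) :
    ∃ x y : F, c = algebraMap F E x + algebraMap F E y * δ := by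
  classical
  have hinj : Function.Injective fun p : F × F => algebraMap F E p.1 + algebraMap F E p.2 * δ :=
    fun p p' h => Prod.ext (H.coord_inj h).1 (H.coord_inj h).2
  have hcard : Nat.card (F × F) = Nat.card E := by
    rw [Module.natCard_eq_pow_finrank (K := F) (V := E), H.degree, Nat.card_prod, pow_two]
  obtain ⟨⟨x, y⟩, hxy⟩ := (((Nat.bijective_iff_injective_and_card _).2 ⟨hinj, hcard⟩).2 c)
  exact ⟨x, y, hxy.symm⟩

include F in
theorem card_quad (H : HermExt (d := d) δ a) : Fintype.card E = Fintype.card F ^ 2 := by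
  rw [← Nat.card_eq_fintype_card, ← Nat.card_eq_fintype_card, Module.natCard_eq_pow_finrank (K := F) (V := E),
    H.degree]

theorem algebraMap_conj (H : HermExt (d := d) δ a) (x : F) :
    H3.conjQ (card_quad H) (algebraMap F E x) = algebraMap F E x := by
  rw [H3.conjQ_apply, ← map_pow, FiniteField.pow_card]

theorem HermExt.conj_delta (H : HermExt (d := d) δ a) : H3.conjQ (card_quad H) δ = -δ := by
  have hF2 : ringChar F ≠ 2 := fun h => H.odd (by
    haveI := ringChar.of_eq h
    exact_mod_cast CharP.cast_eq_zero F 2)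
  have ha0 : a ≠ 0 := fun h => H.out ⟨0, by
    have h1 := H.sq
    rw [h, map_zero] at h1
    rw [map_zero]
    exact ((mul_self_eq_zero).1 h1.symm).symm⟩
  have hns : ¬ IsSquare a := by
    rintro ⟨s, rfl⟩
    have h1 := H.sq
    rw [map_mul] at h1
    rcases mul_self_eq_mul_self_iff.1 h1 with h | h
    · exact H.out ⟨s, h⟩
    · exact H.out ⟨-s, by rw [map_neg, h, neg_neg]⟩
  have h1 : a ^ (Fintype.card F / 2) = -1 :=
    (FiniteField.pow_dichotomy hF2 ha0).resolve_left fun h => hns ((FiniteField.isSquare_iff hF2 ha0).2 h)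
  have hodd := FiniteField.odd_card_of_char_ne_two hF2
  rw [H3.conjQ_apply, show Fintype.card F = 2 * (Fintype.card F / 2) + 1 by omega, pow_succ, pow_mul, pow_two, ← H.sq,
    ← map_pow, h1, map_neg, map_one, neg_one_mul]

/-- The Hermitian form `v u ↦ B(v, δ u) + δ B(v, u)`. -/
noncomputable def hForm (H : HermExt (d := d) δ a) :
    (Fin d ⊕ Fin d → F) →ₛₗ[H3.conjQ (card_quad H)] (Fin d ⊕ Fin d → F) →ₗ[E] E :=
  LinearMap.mk₂'ₛₗ (H3.conjQ (card_quad H)) (RingHom.id E)
    (fun v u => algebraMap F E (H2.sympBilin d F v (δ • u)) + algebraMap F E (H2.sympBilin d F v u) * δ)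
    (fun v v' u => by simp only [map_add, LinearMap.add_apply]; ring)
    (fun c v u => by
      obtain ⟨x, y, rfl⟩ := H.exists_coords c
      have hxy : ∀ w : Fin d ⊕ Fin d → F,
          (algebraMap F E x + algebraMap F E y * δ) • w = x • w + y • (δ • w) := fun w => by
        rw [add_smul, mul_smul, algebraMap_smul, algebraMap_smul]
      have hdd : ∀ w : Fin d ⊕ Fin d → F, δ • δ • w = a • w := fun w => by
        rw [smul_smul, ← H.sq, algebraMap_smul]
      rw [hxy, map_add (H3.conjQ (card_quad H)), map_mul (H3.conjQ (card_quad H)), algebraMap_conj H, algebraMap_conj H, H.conj_delta, smul_eq_mul]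
      simp only [map_add, map_smul, LinearMap.add_apply, LinearMap.smul_apply, smul_eq_mul, H.anti, hdd,
        map_mul, map_neg]
      linear_combination (algebraMap F E y * algebraMap F E (H2.sympBilin d F v u)) * (-1) * H.sq)
    (fun v u u' => by simp only [smul_add, map_add]; ring)
    (fun c v u => by
      obtain ⟨x, y, rfl⟩ := H.exists_coords c
      have hxy : ∀ w : Fin d ⊕ Fin d → F,
          (algebraMap F E x + algebraMap F E y * δ) • w = x • w + y • (δ • w) := fun w => by
        rw [add_smul, mul_smul, algebraMap_smul, algebraMap_smul]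
      have hdd : ∀ w : Fin d ⊕ Fin d → F, δ • δ • w = a • w := fun w => by
        rw [smul_smul, ← H.sq, algebraMap_smul]
      rw [hxy, RingHom.id_apply, smul_eq_mul, smul_add, smul_comm δ x, smul_comm δ y]
      simp only [map_add, map_smul, smul_eq_mul, hdd, map_mul]
      linear_combination (algebraMap F E y * algebraMap F E (H2.sympBilin d F v u)) * H.sq)

theorem hForm_apply (H : HermExt (d := d) δ a) (v u : Fin d ⊕ Fin d → F) :
    hForm H v u = algebraMap F E (H2.sympBilin d F v (δ • u)) + algebraMap F E (H2.sympBilin d F v u) * δ := rfl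

theorem hForm_symm (H : HermExt (d := d) δ a) (v u : Fin d ⊕ Fin d → F) :
    H3.conjQ (card_quad H) (hForm H v u) = hForm H u v := by
  rw [hForm_apply, hForm_apply, map_add, map_mul, algebraMap_conj H, algebraMap_conj H, H.conj_delta,
    ← (H2.sympBilin_isAlt d F).neg_eq v u, ← (H2.sympBilin_isAlt d F).neg_eq (δ • v) u, H.anti, neg_neg,
    map_neg]
  ring

theorem isHerm_hForm (H : HermExt (d := d) δ a) : H3.IsHerm (hForm H) (Fintype.card F) where
  card_eq := card_quad H
  sigma_apply := H3.conjQ_apply (card_quad H)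
  symm := hForm_symm H
  sep v hv := (H2.sympBilin_nondegenerate d F).1 v fun w =>
    (H.coord_inj (x' := 0) (y' := 0) (by rw [← hForm_apply H, hv w, map_zero, zero_mul, zero_add])).2

/-- Preserving the Hermitian form preserves the alternating form. -/
theorem HermExt.preserves (H : HermExt (d := d) δ a) {f : End F (Fin d ⊕ Fin d → F)}
    (h : ∀ v u, hForm H (f v) (f u) = hForm H v u) (v u : Fin d ⊕ Fin d → F) :
    H2.sympBilin d F (f v) (f u) = H2.sympBilin d F v u :=
  (H.coord_inj (by rw [← hForm_apply H, ← hForm_apply H]; exact h v u)).2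

/-- Preserving the alternating form and commuting with scalars preserves the Hermitian form. -/
theorem HermExt.hForm_preserved (H : HermExt (d := d) δ a) {f : End F (Fin d ⊕ Fin d → F)}
    (hf : ∀ v u, H2.sympBilin d F (f v) (f u) = H2.sympBilin d F v u) (hlin : ∀ (c : E) v, f (c • v) = c • f v)
    (v u : Fin d ⊕ Fin d → F) : hForm H (f v) (f u) = hForm H v u := by
  rw [hForm_apply, hForm_apply, ← hlin, hf, hf]

theorem HermExt.finrank_E (H : HermExt (d := d) δ a) : finrank E (Fin d ⊕ Fin d → F) = d := by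
  haveI : Module.Finite E (Fin d ⊕ Fin d → F) := Module.Finite.of_finite
  have h := Module.finrank_mul_finrank F E (Fin d ⊕ Fin d → F)
  rw [H.degree, finrank_V] at h
  omega

/-- The standard basis of the Hermitian space. -/
theorem HermExt.exists_std (H : HermExt (d := d) δ a) :
    ∃ e : (Fin d ⊕ Fin d → F) ≃ₗ[E] (Fin d → E),
      ∀ v u, H3.hermB (card_quad H) d (e v) (e u) = hForm H v u := by
  haveI : Module.Finite E (Fin d ⊕ Fin d → F) := Module.Finite.of_finite
  exact FP.exists_isometry (card_quad H) (isHerm_hForm H) (H3.isHerm_hermB (card_quad H) d) H.finrank_E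
    (Module.finrank_fin_fun E)

/-- Unitary matrices as symplectic elements. -/
theorem HermExt.exists_embedding (H : HermExt (d := d) δ a) (e : (Fin d ⊕ Fin d → F) ≃ₗ[E] (Fin d → E))
    (he : ∀ v u, H3.hermB (card_quad H) d (e v) (e u) = hForm H v u) :
    ∃ φ : Cfsg.GU d E (Fintype.card F) →* GL (Fin d ⊕ Fin d) F, Function.Injective φ ∧
      (∀ A, φ A ∈ Cfsg.spGL d F) ∧
      ∀ (A : Cfsg.GU d E (Fintype.card F)) v,
        gop (φ A) v = e.symm (((A : GL (Fin d) E) : Matrix (Fin d) (Fin d) E) *ᵥ e v) := by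
  let ρ : Cfsg.GU d E (Fintype.card F) → End F (Fin d ⊕ Fin d → F) := fun A =>
    (e.symm.toLinearMap ∘ₗ Matrix.toLin' ((A : GL (Fin d) E) : Matrix (Fin d) (Fin d) E) ∘ₗ
      e.toLinearMap).restrictScalars F
  have hρ : ∀ A v, ρ A v = e.symm (((A : GL (Fin d) E) : Matrix (Fin d) (Fin d) E) *ᵥ e v) := fun A v => by
    simp [ρ]
  have hmul : ∀ A B, ρ (A * B) = ρ A * ρ B := fun A B => LinearMap.ext fun v => by
    rw [Module.End.mul_apply, hρ, hρ, hρ, e.apply_symm_apply, Matrix.mulVec_mulVec]; rfl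
  have h1 : ρ 1 = 1 := LinearMap.ext fun v => by
    rw [hρ, OneMemClass.coe_one, Units.val_one, Matrix.one_mulVec, e.symm_apply_apply]; rfl
  let ρh : Cfsg.GU d E (Fintype.card F) →* GL (Fin d ⊕ Fin d) F :=
    (Units.map (Matrix.toLinAlgEquiv' (R := F) (n := Fin d ⊕ Fin d)).symm.toAlgHom.toRingHom.toMonoidHom).comp
      (MonoidHom.mk ⟨ρ, h1⟩ hmul).toHomUnits
  have hgop : ∀ A, gop (ρh A) = ρ A := fun A => Matrix.toLin'_toMatrix' _
  refine ⟨ρh, fun A B h => ?_, fun A => mem_sp_of_gop (H.preserves fun v u => ?_), fun A v => by rw [hgop, hρ]⟩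
  · refine Subtype.ext (Units.ext (Matrix.ext_of_mulVec_single fun i => e.symm.injective ?_))
    have := congrArg (fun g => gop g (e.symm (Pi.single i 1))) h
    simpa [hgop, hρ] using this
  · rw [hgop, hρ, hρ, ← he, e.apply_symm_apply, e.apply_symm_apply, H3.hermB_apply, ← he, H3.hermB_apply]
    exact A.2 _ _

/-- The congruence attached to a prime dividing the index. -/
theorem HermExt.dvd_index (H : HermExt (d := d) δ a) {N : Subgroup (GL (Fin d ⊕ Fin d) F)}
    (hlin : ∀ g : GL (Fin d ⊕ Fin d) F, (∀ (c : E) (v : Fin d ⊕ Fin d → F), gop g (c • v) = c • gop g v) → g ∈ N)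
    {r : ℕ} [Fact r.Prime] (hr : (r : F) ≠ 0) (hΩ : r ∣ N.relIndex (Cfsg.spGL d F)) :
    ∃ i, i < d ∧ (Nat.card F : ZMod r) ^ (i + 1) = -(-1) ^ (i + 1) := by
  classical
  obtain ⟨e, he⟩ := H.exists_std
  obtain ⟨φ, hφ, hφS, hφv⟩ := H.exists_embedding e he
  have hU : φ.range ≤ N := by
    rintro _ ⟨A, rfl⟩
    refine hlin _ fun c v => ?_
    rw [hφv, hφv, map_smul, Matrix.mulVec_smul, map_smul]
  have h := relIndex_mul_card_dvd_of_le hU (by rintro _ ⟨A, rfl⟩; exact hφS A : φ.range ≤ Cfsg.spGL d F)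
  rw [← Nat.card_congr (MonoidHom.ofInjective hφ).toEquiv, card_sp_eq] at h
  have h' := Int.natCast_dvd_natCast.2 h
  rw [Nat.cast_mul, FP.card_GU_int (card_quad H), Nat.cast_mul, Nat.cast_pow, Nat.cast_prod] at h'
  set q := Nat.card F with hq
  rw [← Nat.card_eq_fintype_card (α := F), ← hq] at h'
  have hq1 : 1 < q := Finite.one_lt_card
  set b := d * (d - 1) / 2
  set A := ∏ i ∈ Finset.range d, ((q : ℤ) ^ (i + 1) - (-1) ^ (i + 1))
  set B := ∏ i ∈ Finset.range d, ((q : ℤ) ^ (i + 1) + (-1) ^ (i + 1))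
  have hprod : ∏ i ∈ Finset.range d, ((q ^ (2 * (i + 1)) - 1 : ℕ) : ℤ) = A * B := by
    rw [← Finset.prod_mul_distrib]
    refine Finset.prod_congr rfl fun i _ => ?_
    have h1 : ((-1 : ℤ) ^ (i + 1)) ^ 2 = 1 := by rw [← pow_mul, Even.neg_one_pow (by simp)]
    rw [Nat.cast_sub (Nat.one_le_pow _ _ (by omega)), Nat.cast_pow, Nat.cast_one, mul_comm 2, pow_mul]
    linear_combination h1
  rw [hprod] at h'
  have hA : A ≠ 0 := Finset.prod_ne_zero_iff.2 fun i _ => by
    have h3 : (2 : ℤ) ≤ (q : ℤ) ^ (i + 1) :=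
      le_trans (by exact_mod_cast hq1) (le_self_pow₀ (by exact_mod_cast (show 1 ≤ q by omega)) (by omega))
    rcases neg_one_pow_eq_or ℤ (i + 1) with h | h <;> rw [h] <;> omega
  set I : ℤ := ((N.relIndex (Cfsg.spGL d F) : ℕ) : ℤ)
  have h3 : I * (q : ℤ) ^ b * A ∣ (q : ℤ) ^ (d ^ 2) * B * A := by
    convert h' using 1 <;> ring
  have hrp : Prime (r : ℤ) := Nat.prime_iff_prime_int.1 Fact.out
  have hrq : ¬ (r : ℤ) ∣ (q : ℤ) := fun h => H97.natCard_ne_zero_zmod hr
    ((ZMod.natCast_eq_zero_iff _ _).2 (Int.natCast_dvd_natCast.1 h))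
  have h4 := (dvd_mul_of_dvd_left (Int.natCast_dvd_natCast.2 hΩ) _).trans ((mul_dvd_mul_iff_right hA).1 h3)
  obtain ⟨i, hi, hri⟩ := (hrp.dvd_finsetProd_iff _).1
    ((hrp.dvd_or_dvd h4).resolve_left fun h => hrq (hrp.dvd_of_dvd_pow h))
  rw [Finset.mem_range] at hi
  refine ⟨i, hi, ?_⟩
  have h5 := (ZMod.intCast_zmod_eq_zero_iff_dvd _ _).2 hri
  push_cast at h5
  exact eq_neg_of_add_eq_zero_left h5

end Cfsg.Agent.H98.ExtEl
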