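import Cfsg.Agent.H98.ExtElusive.SympForm
import Mathlib.LinearAlgebra.SymplecticGroup

/-!
# Elements of prime order and the normaliser of a self-adjoint field
-/

set_option autoImplicit false
set_option linter.unusedSectionVars false
set_option linter.style.haveILetI false

namespace Cfsg.Agent.H98.ExtEl

open Module
open scoped Matrix
open Cfsg.Geo (IsFieldSubalgebra subalgebraNormalizer)
open Cfsg.Agent.H58.ExtField

variable {F : Type*} [Field F] [Fintype F] {d : ℕ}

theorem finrank_fixed_add_moved (g : End F (Fin d ⊕ Fin d → F)) :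
    finrank F (H97.fixedSpace g) + finrank F (H97.movedSpace g) = 2 * d := by
  rw [← finrank_V (F := F) (d := d), add_comm]
  exact LinearMap.finrank_range_add_finrank_ker (g - 1)

theorem lcm_dvd_index {r : ℕ} {i : ℕ} (h : (Nat.card F : ZMod r) ^ (2 * (i + 1)) = 1) :
    Nat.lcm 2 (orderOf (Nat.card F : ZMod r)) ∣ 2 * (i + 1) :=
  Nat.lcm_dvd (dvd_mul_right _ _) (orderOf_dvd_of_pow_eq_one h)

/-- In dimension four a non-scalar involution fixes a plane. -/
theorem fixed_eq_two (h2 : (2 : F) ≠ 0) {x : GL (Fin 2 ⊕ Fin 2) F} (hx : x ∈ Cfsg.spGL 2 F)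
    (hxx : gop x ^ 2 = 1) (hns : ∀ z : F, gop x ≠ z • 1) : finrank F (H97.fixedSpace (gop x)) = 2 := by
  haveI : Fact (Nat.Prime 2) := ⟨Nat.prime_two⟩
  have hA := H2.sympBilin_isAlt 2 F
  have hnd : H97.NondegOn (H2.sympBilin 2 F) (⊤ : Submodule F (Fin 2 ⊕ Fin 2 → F)) :=
    fun v _ h => (H2.sympBilin_nondegenerate 2 F).1 v fun w => h w Submodule.mem_top
  obtain ⟨hf, hm⟩ := H97.nondegOn_fixed_moved (r := 2) _ hA.isRefl hnd (by exact_mod_cast h2) (gop x) hxx (sp_gop hx)
  obtain ⟨a, ha⟩ := hf.even_finrank hA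
  have hsum := finrank_fixed_add_moved (gop x)
  have h0 : finrank F (H97.fixedSpace (gop x)) ≠ 0 := by
    intro h
    refine hns (-1) (LinearMap.ext fun v => ?_)
    have htop : H97.movedSpace (gop x) = ⊤ := Submodule.eq_top_of_finrank_eq (by rw [finrank_V]; omega)
    obtain ⟨w, rfl⟩ : v ∈ H97.movedSpace (gop x) := htop ▸ Submodule.mem_top
    have := LinearMap.congr_fun hxx w
    rw [sq, Module.End.mul_apply, Module.End.one_apply] at this
    simp only [LinearMap.sub_apply, Module.End.one_apply, map_sub, this, LinearMap.smul_apply, neg_one_smul]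
    abel
  have h4 : finrank F (H97.fixedSpace (gop x)) ≠ 4 := by
    intro h
    refine hns 1 (LinearMap.ext fun v => ?_)
    have htop : H97.fixedSpace (gop x) = ⊤ := Submodule.eq_top_of_finrank_eq (by rw [finrank_V]; omega)
    rw [one_smul, H97.mem_fixedSpace.1 (htop ▸ Submodule.mem_top : v ∈ H97.fixedSpace (gop x))]
    rfl
  omega

variable {k : ℕ} {r : ℕ} [Fact r.Prime]

/-- The criterion for field extension subgroups of symplectic groups. -/
theorem symp_ext_iff {p : ℕ} [Fact p.Prime] [CharP F p] {q : ℕ} (hq : Fintype.card F = q) (hd : 2 ≤ d) (hT : (d, q) ≠ (2, 2)) (hk : k.Prime)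
    (K : Subalgebra F (Matrix (Fin d ⊕ Fin d) (Fin d ⊕ Fin d) F)) (hK : IsFieldSubalgebra k K)
    (hKf : Cfsg.Geo.IsSelfAdjointFor (Cfsg.sympForm d F) K)
    (hKalt : ∀ a ∈ K, ∀ v : Fin d ⊕ Fin d → F, Cfsg.sympForm d F (a *ᵥ v) v = 0)
    (hΩ : r ∣ (subalgebraNormalizer K).relIndex (Cfsg.spGL d F)) :
    (∀ x ∈ Cfsg.spGL d F, (∃ z : F, ((x ^ r : GL (Fin d ⊕ Fin d) F) : Matrix (Fin d ⊕ Fin d) (Fin d ⊕ Fin d) F) =
        z • (1 : Matrix (Fin d ⊕ Fin d) (Fin d ⊕ Fin d) F)) →
      (∀ z : F, (x : Matrix (Fin d ⊕ Fin d) (Fin d ⊕ Fin d) F) ≠ z • (1 : Matrix (Fin d ⊕ Fin d) (Fin d ⊕ Fin d) F)) →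
      ∃ g ∈ Cfsg.spGL d F, g⁻¹ * x * g ∈ subalgebraNormalizer K) ↔
    (r = 2 ∧ d = 2 ∧ k = 2 ∧ Odd q) := by
  subst hq
  classical
  have : Nonempty (Fin d ⊕ Fin d) := ⟨Sum.inl ⟨0, by omega⟩⟩
  have hrp := (Fact.out : r.Prime)
  obtain ⟨fE, H⟩ := exists_sympExt (E := FK hK) (d := d) (F := F)
    (fun c x y => by
      rw [H2.sympBilin_apply, H2.sympBilin_apply, FK.smul_eq, FK.smul_eq]
      exact hKf _ (c : ↥K).2 x y)
    (fun c x => by rw [H2.sympBilin_apply, FK.smul_eq]; exact hKalt _ (c : ↥K).2 x)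
  have hkE : (finrank F (FK hK)).Prime := by rw [FK.finrank_eq hK]; exact hk
  obtain ⟨m, e, hdm, he⟩ := H.exists_std
  rw [FK.finrank_eq hK] at hdm
  have hm : m ≠ 0 := fun h => by rw [h, mul_zero] at hdm; omega
  have hcard : Fintype.card (Fin d ⊕ Fin d) = 2 * d := by rw [Fintype.card_sum, Fintype.card_fin, two_mul]
  constructor
  · intro Hall
    by_contra hno
    by_cases hr : (r : F) = 0
    · have hrpp : r = p := ((Nat.prime_dvd_prime_iff_eq (Fact.out : p.Prime) hrp).1
        ((CharP.cast_eq_zero_iff F p r).1 hr)).symm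
      subst hrpp
      obtain ⟨g, hg, hgr, hgd⟩ := exists_transvection (F := F) (d := d) (by omega) (p := r)
      refine not_all_fix hg hgr (fun z hz => ?_) (fun h hh hhK hhr hdim => ?_) Hall
      · rw [hz] at hgd
        rcases moved_scalar (F := F) (d := d) (z := z) with h | h <;> omega
      rw [hgd] at hdim
      rcases linear_or_semilinear hk hK hhK hhr with hlin | ⟨-, hfix⟩
      · have := dvd_finrank_stable (E := FK hK) (W := H97.movedSpace (gop h)) fun a w => smul_mem_moved hlin a w
        rw [FK.finrank_eq hK, hdim, Nat.dvd_one] at this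
        exact hk.ne_one this
      · have hsum := finrank_fixed_add_moved (gop h)
        rw [hdim] at hsum
        rw [hcard] at hfix
        have := Nat.mul_le_mul_right (finrank F (H97.fixedSpace (gop h))) hk.two_le
        omega
    obtain ⟨i, hid, hki, hqi⟩ := H.dvd_index hkE
      (fun g hg => mem_normalizer_of_semilinear hK fun a => ⟨a, hg a⟩) hr hΩ
    rw [FK.finrank_eq hK] at hki
    set o := orderOf (Nat.card F : ZMod r) with ho
    obtain ⟨j, hj⟩ : 2 ∣ Nat.lcm 2 o := Nat.dvd_lcm_left _ _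
    have hDi := lcm_dvd_index hqi
    rw [← ho] at hDi
    have hji : j ∣ i + 1 := (Nat.mul_dvd_mul_iff_left two_pos).1 (hj ▸ hDi)
    have hjpos : 0 < j := by
      have := Nat.lcm_pos two_pos (H97.orderOf_pos_zmod (F := F) hr)
      rw [← ho] at this
      omega
    have hjle : j ≤ i + 1 := Nat.le_of_dvd (by omega) hji
    have hkj : ¬ k ∣ j := fun h => hki (h.trans hji)
    have ho1 : o ∣ r - 1 :=
      orderOf_dvd_of_pow_eq_one (ZMod.pow_card_sub_one_eq_one (H97.natCard_ne_zero_zmod hr))
    obtain ⟨g, hg, hgr, hgd⟩ := exists_moved (F := F) (d := d) (r := r) hr (by rw [← ho, hj]; omega)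
    rw [← ho, hj] at hgd
    refine not_all_fix hg hgr (fun z hz => ?_) (fun h hh hhK hhr hdim => ?_) Hall
    · rw [hz] at hgd
      by_cases hr2 : r = 2
      · subst hr2
        have : o = 1 := Nat.dvd_one.1 ho1
        rw [this, Nat.lcm_one_right] at hj
        rcases moved_scalar (F := F) (d := d) (z := z) with h | h <;> omega
      · have hz1 : z = 1 := by
          have hzr : gop (g ^ r) = 1 := by rw [hgr, gop_one]
          rw [gop_pow, hz, smul_pow, one_pow] at hzr
          rcases scalar_sp (by omega) hg hz with h | h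
          · exact h
          · rw [h, (hrp.odd_of_ne_two hr2).neg_one_pow] at hzr
            have h1 := congrFun (LinearMap.congr_fun hzr fun _ => 1) (Sum.inl ⟨0, by omega⟩)
            simp only [LinearMap.smul_apply, Module.End.one_apply, Pi.smul_apply, smul_eq_mul, mul_one] at h1
            rw [h, h1]
        rw [hz1, one_smul, H97.movedSpace, sub_self, LinearMap.range_zero, finrank_bot] at hgd
        omega
    rw [hgd] at hdim
    rcases linear_or_semilinear hk hK hhK hhr with hlin | ⟨hrk, hfix⟩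
    · have hpow : gop h ^ r = 1 := by rw [← gop_pow, hhr, gop_one]
      have hnd : H97.NondegOn (H2.sympBilin d F) (⊤ : Submodule F (Fin d ⊕ Fin d → F)) :=
        fun v _ h => (H2.sympBilin_nondegenerate d F).1 v fun w => h w Submodule.mem_top
      have := H.dvd_nondeg_stable (W := H97.movedSpace (gop h)) (fun a w => smul_mem_moved hlin a w)
        (H97.nondegOn_fixed_moved (r := r) _ (H2.sympBilin_isAlt d F).isRefl hnd hr _ hpow (sp_gop hh)).2
      rw [FK.finrank_eq hK, hdim, Nat.mul_dvd_mul_iff_left two_pos] at this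
      exact hkj this
    · subst hrk
      have hsum := finrank_fixed_add_moved (gop h)
      rw [hdim] at hsum
      rw [hcard] at hfix
      by_cases hr2 : r = 2
      · subst hr2
        have : o = 1 := Nat.dvd_one.1 ho1
        rw [this, Nat.lcm_one_right] at hj
        have hodd : Odd (Fintype.card F) := by
          refine Nat.odd_iff.2 (FiniteField.odd_card_of_char_ne_two fun hc => hr ?_)
          haveI := ringChar.of_eq hc
          exact CharP.cast_eq_zero F 2
        exact hno ⟨rfl, by omega, rfl, hodd⟩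
      · obtain ⟨t, ht⟩ := hrp.odd_of_ne_two hr2
        have hlcm : Nat.lcm 2 o ∣ r - 1 := Nat.lcm_dvd ⟨t, by omega⟩ ho1
        have hjle2 : 2 * j ≤ r - 1 := hj ▸ Nat.le_of_dvd (by have := hrp.two_le; omega) hlcm
        have h3 : 3 ≤ r := by have := hrp.two_le; omega
        have h1 : 1 ≤ m := Nat.pos_of_ne_zero hm
        have hfx : 2 * d ≤ finrank F (H97.fixedSpace (gop h)) + (r - 1) := by omega
        subst hdm
        have hfm : finrank F (H97.fixedSpace (gop h)) ≤ 2 * m :=
          Nat.le_of_mul_le_mul_left (show r * finrank F (H97.fixedSpace (gop h)) ≤ r * (2 * m) by rw [mul_left_comm r 2 m]; exact hfix) (by omega)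
        have hu : (r - 1) * 1 ≤ (r - 1) * m := Nat.mul_le_mul_left _ h1
        have hru : r * m = (r - 1) * m + m := by
          conv_lhs => rw [show r = r - 1 + 1 by omega]
          ring
        omega
  · rintro ⟨rfl, rfl, rfl, hodd⟩ x hx ⟨z, hz⟩ hns
    have h2 : (2 : F) ≠ 0 := Ring.two_ne_zero fun h =>
      Nat.not_even_iff_odd.2 hodd (Nat.even_iff.2 (FiniteField.even_card_iff_char_two.1 h))
    have hm1 : m = 1 := by omega
    subst hm1
    rw [scalar_iff, gop_pow] at hz
    have hzz : z = 1 ∨ z = -1 := scalar_sp (by omega) (pow_mem hx 2) (by rw [gop_pow]; exact hz)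
    suffices ∃ y ∈ Cfsg.spGL 2 F, y ∈ subalgebraNormalizer K ∧ ∃ h ∈ Cfsg.spGL 2 F, h⁻¹ * x * h = y by
      obtain ⟨y, -, hyK, h, hh, hxy⟩ := this
      exact ⟨h, hh, hxy ▸ hyK⟩
    rcases hzz with rfl | rfl
    · -- semilinear involution
      rw [one_smul] at hz
      obtain ⟨τ, hτ1, hττ⟩ := exists_conjugation (F := F) (E := FK hK) (FK.finrank_eq hK)
      let f : End F (Fin 2 ⊕ Fin 2 → F) :=
        (e.symm.toLinearMap.restrictScalars F) ∘ₗ (LinearMap.compLeft τ.toLinearMap (Fin 1 ⊕ Fin 1)) ∘ₗ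
          (e.toLinearMap.restrictScalars F)
      have hf : ∀ v, f v = e.symm (fun i => τ (e v i)) := fun v => rfl
      have hff : ∀ v, f (f v) = v := fun v => by
        rw [hf, hf, e.apply_symm_apply]
        simp only [hττ]
        exact e.symm_apply_apply v
      obtain ⟨y, hy⟩ := exists_gl f (Function.LeftInverse.injective hff)
      have hys : ∀ (a : FK hK) (v : Fin 2 ⊕ Fin 2 → F), gop y (a • v) = τ a • gop y v := fun a v => by
        rw [hy, hf, hf, ← map_smul]
        refine congrArg e.symm (funext fun i => ?_)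
        rw [map_smul, Pi.smul_apply, Pi.smul_apply, smul_eq_mul, smul_eq_mul, map_mul]
      have hyS : y ∈ Cfsg.spGL 2 F := mem_sp_of_gop fun u v => by
        rw [hy, hf, hf, H.eq_trace, H.eq_trace, ← he, ← he, e.apply_symm_apply, e.apply_symm_apply,
          H2.sympForm_apply, H2.sympForm_apply, map_sum, map_sum]
        refine Finset.sum_congr rfl fun i _ => ?_
        rw [← map_mul, ← map_mul, ← map_sub, Algebra.trace_eq_of_algEquiv τ]
      have hyy : gop y ^ 2 = 1 := LinearMap.ext fun v => by rw [hy, sq, Module.End.mul_apply, hff]; rfl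
      have hyns : ∀ c : F, gop y ≠ c • 1 := fun c hc => hτ1 (AlgEquiv.ext fun a => by
        obtain ⟨v, hv⟩ := exists_ne (0 : Fin 2 ⊕ Fin 2 → F)
        have h1 := hys a v
        rw [hc, LinearMap.smul_apply, LinearMap.smul_apply, Module.End.one_apply, Module.End.one_apply,
          smul_comm c a v] at h1
        have hcv : c • v ≠ 0 := fun h0 => by
          have : gop y v = 0 := by rw [hc]; exact h0
          rw [hy] at this
          exact hv (by rw [← hff v, this, map_zero])
        exact (smul_left_injective (FK hK) hcv h1).symm)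
      refine ⟨y, hyS, mem_normalizer_of_semilinear hK fun a => ⟨τ a, hys a⟩, ?_⟩
      exact conj_sq_one h2 hx hyS hz hyy ((fixed_eq_two h2 hx hz fun c hc => hns c ((scalar_iff x c).2 hc)).trans
        (fixed_eq_two h2 hyS hyy hyns).symm)
    · -- linear element with square minus one
      obtain ⟨φ, -, hφS, hφv⟩ := H.exists_embedding e he
      let J : Matrix.symplecticGroup (Fin 1) (FK hK) := ⟨Matrix.J (Fin 1) (FK hK), SymplecticGroup.J_mem _ _⟩
      refine ⟨φ J, hφS J, mem_normalizer_of_semilinear hK fun a => ⟨a, fun v => by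
        rw [hφv, hφv, map_smul, Matrix.mulVec_smul, map_smul]⟩, conj_sq_neg h2 hx (hφS J) hz ?_⟩
      refine LinearMap.ext fun v => ?_
      rw [sq, Module.End.mul_apply, hφv, hφv, e.apply_symm_apply, Matrix.mulVec_mulVec]
      show e.symm ((Matrix.J (Fin 1) (FK hK) * Matrix.J (Fin 1) (FK hK)) *ᵥ e v) = _
      rw [Matrix.J_squared, Matrix.neg_mulVec]
      simp
      erw [Matrix.one_mulVec, e.symm_apply_apply]

end Cfsg.Agent.H98.ExtEl
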