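import Cfsg.Agent.H98.ExtElusive.HermForm
import Cfsg.Agent.H98.ExtElusive.SympMain
import Cfsg.Agent.H98.FormPreserve.Main

/-!
# Elements of prime order and the normaliser of a non-self-adjoint quadratic field
-/

set_option autoImplicit false
set_option linter.unusedSectionVars false
set_option linter.style.haveILetI false

namespace Cfsg.Agent.H98.ExtEl

open Module
open scoped Matrix
open Cfsg.Geo (IsFieldSubalgebra subalgebraNormalizer)
open Cfsg.Agent.H58.ExtField

variable {F : Type*} [Field F] [Fintype F] {d : ℕ}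

section Ext

variable {E : Type*} [Field E] [Fintype E] [Algebra F E]
  [Module E (Fin d ⊕ Fin d → F)] [IsScalarTower F E (Fin d ⊕ Fin d → F)] {δ : E} {a : F}

/-- A linear element of order `r` cannot move a piece of the least dimension. -/
theorem no_linear_piece (H : HermExt (d := d) δ a) {r : ℕ} [Fact r.Prime] (hr : (r : F) ≠ 0) {j : ℕ}
    (hj : Nat.lcm 2 (orderOf (Nat.card F : ZMod r)) = 2 * j) (hj0 : 0 < j)
    (hbad : (Nat.card F : ZMod r) ^ j ≠ (-1) ^ j) {h : GL (Fin d ⊕ Fin d) F} (hh : h ∈ Cfsg.spGL d F)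
    (hhr : h ^ r = 1) (hlin : ∀ (c : E) v, gop h (c • v) = c • gop h v)
    (hdim : finrank F (H97.movedSpace (gop h)) = 2 * j) : False := by
  haveI : Module.Finite E (Fin d ⊕ Fin d → F) := Module.Finite.of_finite
  have hq : (Nat.card F : ZMod r) ≠ 0 := H97.natCard_ne_zero_zmod hr
  have hpow : gop h ^ r = 1 := by rw [← gop_pow, hhr, gop_one]
  set Mv := H97.movedSpace (gop h) with hMv
  let M : Submodule E (Fin d ⊕ Fin d → F) :=
    { carrier := Mv, add_mem' := Mv.add_mem', zero_mem' := Mv.zero_mem',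
      smul_mem' := fun c w hw => smul_mem_moved hlin c w hw }
  have hMdim : finrank E M = j := by
    have h1 := Module.finrank_mul_finrank F E M
    rw [H.degree, show finrank F M = finrank F Mv from rfl, hdim] at h1
    omega
  let BM : M →ₛₗ[H3.conjQ (card_quad H)] M →ₗ[E] E := ((hForm H).comp M.subtype).compl₂ M.subtype
  have hnd : H97.NondegOn (H2.sympBilin d F) (⊤ : Submodule F (Fin d ⊕ Fin d → F)) :=
    fun v _ h => (H2.sympBilin_nondegenerate d F).1 v fun w => h w Submodule.mem_top
  have hMnd := (H97.nondegOn_fixed_moved (r := r) _ (H2.sympBilin_isAlt d F).isRefl hnd hr _ hpow (sp_gop hh)).2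
  have hBM : H3.IsHerm BM (Fintype.card F) := ⟨card_quad H, (isHerm_hForm H).sigma_apply,
    fun v u => hForm_symm H _ _, fun v hv => Subtype.ext (hMnd v v.2 fun w hw =>
      (H.coord_inj (x' := 0) (y' := 0) (by
        rw [← hForm_apply H, map_zero, zero_mul, zero_add]; exact hv ⟨w, hw⟩)).2)⟩
  let T : End E (Fin d ⊕ Fin d → F) :=
    { toFun := gop h, map_add' := map_add _, map_smul' := fun c v => hlin c v }
  have hTM : ∀ v ∈ M, T v ∈ M := fun v hv => H97.movedSpace_inv (gop h) ⟨v, hv, rfl⟩
  have hTk : ∀ (k : ℕ) (v : M), (((T.restrict hTM) ^ k) v : Fin d ⊕ Fin d → F) = (gop h ^ k) v := by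
    intro k
    induction k with
    | zero => intro v; rfl
    | succ k ih => intro v; rw [pow_succ', pow_succ', Module.End.mul_apply, Module.End.mul_apply, ← ih v]; rfl
  have hord : j = orderOf (Nat.card E : ZMod r) := by
    rw [Nat.card_eq_fintype_card, card_quad H, Nat.cast_pow, ← Nat.card_eq_fintype_card]
    set x := (Nat.card F : ZMod r)
    refine Nat.dvd_antisymm ?_ (orderOf_dvd_of_pow_eq_one ?_)
    · have h1 : x ^ (2 * orderOf (x ^ 2)) = 1 := by rw [pow_mul, pow_orderOf_eq_one]
      have h2 := Nat.lcm_dvd (dvd_mul_right 2 (orderOf (x ^ 2))) (orderOf_dvd_of_pow_eq_one h1)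
      rw [hj] at h2
      exact (Nat.mul_dvd_mul_iff_left two_pos).1 h2
    · rw [← pow_mul, ← hj]
      obtain ⟨t, ht⟩ := Nat.dvd_lcm_right 2 (orderOf x)
      rw [ht, pow_mul, pow_orderOf_eq_one, one_pow]
  refine FP.not_isometry_order (card_quad H) hBM hMdim hord
    (by rw [← Nat.card_eq_fintype_card]; exact hbad) (by rw [← Nat.card_eq_fintype_card]; exact hq)
    (T.restrict hTM) (LinearMap.ext fun v => Subtype.ext (by rw [hTk, hpow]; rfl)) (fun h1 => ?_)
    (fun v u => H.hForm_preserved (sp_gop hh) (fun c v => hlin c v) v u)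
  have hbot : Mv = ⊥ := (Submodule.eq_bot_iff _).2 fun v hv =>
    Submodule.disjoint_def.1 (H97.disjoint_fixed_moved hr _ hpow) v
      (H97.mem_fixedSpace.2 (congrArg Subtype.val (LinearMap.congr_fun h1 ⟨v, hv⟩))) hv
  rw [hbot, finrank_bot] at hdim
  omega

/-- An involution of the unitary group with prescribed moved dimension. -/
theorem exists_unitary_involution (H : HermExt (d := d) δ a) {l : ℕ} (hl : l ≤ d) :
    ∃ y ∈ Cfsg.spGL d F, (∀ (c : E) v, gop y (c • v) = c • gop y v) ∧ gop y ^ 2 = 1 ∧
      finrank F (H97.movedSpace (gop y)) = 2 * l := by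
  classical
  haveI : Module.Finite E (Fin d ⊕ Fin d → F) := Module.Finite.of_finite
  obtain ⟨e, he⟩ := H.exists_std
  obtain ⟨φ, -, hφS, hφv⟩ := H.exists_embedding e he
  have hF2 : ringChar F ≠ 2 := fun h => H.odd (by
    haveI := ringChar.of_eq h
    exact_mod_cast CharP.cast_eq_zero F 2)
  obtain ⟨t, ht⟩ : Even (Fintype.card F + 1) :=
    Odd.add_one (Nat.odd_iff.2 (FiniteField.odd_card_of_char_ne_two hF2))
  let w : Fin d → E := fun i => if (i : ℕ) < l then -1 else 1
  have hw : ∀ i, w i ^ (Fintype.card F + 1) = 1 := fun i => by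
    simp only [w]; split_ifs
    · exact Even.neg_one_pow ⟨t, ht⟩
    · exact one_pow _
  let A := H3.guDiag w hw
  have hA : ∀ v : Fin d → E, ((A : GL (Fin d) E) : Matrix (Fin d) (Fin d) E) *ᵥ v = fun i => w i * v i :=
    fun v => funext fun i => Matrix.mulVec_diagonal w v i
  refine ⟨φ A, hφS A, fun c v => by rw [hφv, hφv, map_smul, Matrix.mulVec_smul, map_smul], ?_, ?_⟩
  · refine LinearMap.ext fun v => ?_
    rw [sq, Module.End.mul_apply, hφv, hφv, e.apply_symm_apply, Module.End.one_apply, hA, hA]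
    conv_rhs => rw [← e.symm_apply_apply v]
    refine congrArg e.symm (funext fun i => ?_)
    show w i * (w i * e v i) = e v i
    have h1 : w i * w i = 1 := by simp only [w]; split_ifs <;> ring
    rw [← mul_assoc, h1, one_mul]
  · let D : End E (Fin d ⊕ Fin d → F) :=
      e.symm.toLinearMap ∘ₗ Matrix.toLin' (Matrix.diagonal fun i => w i - 1) ∘ₗ e.toLinearMap
    have hD : ∀ v, D v = (gop (φ A) - 1) v := fun v => by
      rw [LinearMap.sub_apply, Module.End.one_apply, hφv, hA]
      conv_rhs => arg 2; rw [← e.symm_apply_apply v]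
      rw [← map_sub]
      refine congrArg e.symm (funext fun i => ?_)
      show (Matrix.toLin' (Matrix.diagonal fun i => w i - 1)) (e v) i = w i * e v i - e v i
      rw [Matrix.toLin'_apply, Matrix.mulVec_diagonal]; ring
    have h1 : H97.movedSpace (gop (φ A)) = (LinearMap.range D).restrictScalars F := by
      ext v
      simp only [H97.movedSpace, LinearMap.mem_range, Submodule.restrictScalars_mem, hD]
    rw [h1, show finrank F ((LinearMap.range D).restrictScalars F) = finrank F (LinearMap.range D) from rfl,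
      ← Module.finrank_mul_finrank F E (LinearMap.range D), H.degree]
    congr 1
    rw [LinearMap.range_comp, LinearEquiv.finrank_map_eq e.symm,
      LinearMap.range_comp_of_range_eq_top _ e.range]
    show (Matrix.diagonal fun i => w i - 1).rank = l
    rw [Matrix.rank_diagonal, Fintype.card_subtype]
    have h2 : (2 : E) ≠ 0 := fun h => H.odd ((algebraMap F E).injective (by rw [map_ofNat, map_zero, h]))
    rw [show (Finset.univ.filter fun i => w i - 1 ≠ 0) =
      (Finset.univ.filter fun j : Fin d => 0 ≤ (j : ℕ) ∧ (j : ℕ) < l) from Finset.filter_congr fun j _ => by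
        by_cases hj : (j : ℕ) < l
        · simp only [w, if_pos hj, Nat.zero_le, hj, and_self, iff_true]
          exact fun h => h2 (by linear_combination -h)
        · simp [w, hj]]
    exact (FP.card_filter_Ico hl).trans (Nat.sub_zero l)

/-- A semilinear symplectic element with square minus one. -/
theorem exists_semilinear_neg (H : HermExt (d := d) δ a) :
    ∃ y ∈ Cfsg.spGL d F, (∀ (c : E) v, gop y (c • v) = c ^ Fintype.card F • gop y v) ∧
      gop y ^ 2 = (-1 : F) • 1 := by
  obtain ⟨e, he⟩ := H.exists_std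
  have hc := card_quad H
  obtain ⟨c, hcn⟩ := H3.exists_norm_eq hc (μ := (-1 : E)) (by
    rw [← H3.conjQ_apply hc, map_neg, map_one])
  have hsm : ∀ (x : F) (u : E), (algebraMap F E x * u) ^ Fintype.card F = algebraMap F E x * u ^ Fintype.card F :=
    fun x u => by rw [mul_pow, ← map_pow, FiniteField.pow_card]
  let f : End F (Fin d ⊕ Fin d → F) :=
    { toFun := fun v => e.symm fun i => c * (e v i) ^ Fintype.card F
      map_add' := fun v v' => by
        rw [← map_add]
        refine congrArg e.symm (funext fun i => ?_)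
        rw [map_add, Pi.add_apply, Pi.add_apply, H3.add_pow_q hc]; ring
      map_smul' := fun x v => by
        rw [RingHom.id_apply, ← algebraMap_smul E x v, ← algebraMap_smul E x (e.symm _), ← map_smul]
        refine congrArg e.symm (funext fun i => ?_)
        rw [map_smul, Pi.smul_apply, Pi.smul_apply, smul_eq_mul, smul_eq_mul, hsm]; ring }
  have hf : ∀ v, f v = e.symm fun i => c * (e v i) ^ Fintype.card F := fun v => rfl
  have hff : ∀ v, f (f v) = -v := fun v => by
    rw [hf, hf, e.apply_symm_apply]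
    conv_rhs => rw [← e.symm_apply_apply v, ← map_neg]
    refine congrArg e.symm (funext fun i => ?_)
    rw [mul_pow, H3.pow_q_pow_q hc, ← mul_assoc, ← pow_succ', hcn, Pi.neg_apply, neg_one_mul]
  obtain ⟨y, hy⟩ := exists_gl f fun u v huv => by
    have := congrArg f huv
    rw [hff, hff] at this
    exact neg_injective this
  refine ⟨y, mem_sp_of_gop fun v u => ?_, fun x v => ?_, ?_⟩
  · have key : hForm H (f v) (f u) = -hForm H u v := by
      rw [← hForm_symm H v u, ← he, ← he, hf, hf, e.apply_symm_apply, e.apply_symm_apply, H3.hermB_apply,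
        H3.hermB_apply, Cfsg.hermForm, Cfsg.hermForm, map_sum, ← neg_one_mul, Finset.mul_sum]
      refine Finset.sum_congr rfl fun i _ => ?_
      rw [H3.conjQ_apply, mul_pow c, mul_pow (e u i), ← hcn, pow_succ']; ring
    rw [hy, ← (H2.sympBilin_isAlt d F).neg_eq u v]
    refine (H.coord_inj (x := H2.sympBilin d F (f v) (δ • f u))
      (x' := -H2.sympBilin d F u (δ • v)) ?_).2
    rw [← hForm_apply H, key, hForm_apply, map_neg, map_neg]
    ring
  · rw [hy, hf, hf, ← map_smul]
    refine congrArg e.symm (funext fun i => ?_)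
    rw [map_smul, Pi.smul_apply, Pi.smul_apply, smul_eq_mul, smul_eq_mul, mul_pow]; ring
  · refine LinearMap.ext fun v => ?_
    rw [hy, sq, Module.End.mul_apply, hff, LinearMap.smul_apply, Module.End.one_apply, neg_one_smul]

end Ext

variable {r : ℕ} [Fact r.Prime]

/-- The criterion for unitary type subgroups of symplectic groups. -/
theorem herm_ext_iff {p : ℕ} [Fact p.Prime] [CharP F p] {q : ℕ} (hq : Fintype.card F = q) (hodd : Odd q)
    (hd : 2 ≤ d) (K : Subalgebra F (Matrix (Fin d ⊕ Fin d) (Fin d ⊕ Fin d) F)) (hK : IsFieldSubalgebra 2 K)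
    (hKf : Cfsg.Geo.IsAdjointClosedFor (Cfsg.sympForm d F) K)
    (hKns : ¬ Cfsg.Geo.IsSelfAdjointFor (Cfsg.sympForm d F) K)
    (hΩ : r ∣ (subalgebraNormalizer K).relIndex (Cfsg.spGL d F)) :
    (∀ x ∈ Cfsg.spGL d F, (∃ z : F, ((x ^ r : GL (Fin d ⊕ Fin d) F) : Matrix (Fin d ⊕ Fin d) (Fin d ⊕ Fin d) F) =
        z • (1 : Matrix (Fin d ⊕ Fin d) (Fin d ⊕ Fin d) F)) →
      (∀ z : F, (x : Matrix (Fin d ⊕ Fin d) (Fin d ⊕ Fin d) F) ≠ z • (1 : Matrix (Fin d ⊕ Fin d) (Fin d ⊕ Fin d) F)) →
      ∃ g ∈ Cfsg.spGL d F, g⁻¹ * x * g ∈ subalgebraNormalizer K) ↔ r = 2 := by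
  subst hq
  classical
  have : Nonempty (Fin d ⊕ Fin d) := ⟨Sum.inl ⟨0, by omega⟩⟩
  have h2 : (2 : F) ≠ 0 := Ring.two_ne_zero fun h =>
    Nat.not_even_iff_odd.2 hodd (Nat.even_iff.2 (FiniteField.even_card_iff_char_two.1 h))
  have hrp := (Fact.out : r.Prime)
  have hA := H2.sympBilin_isAlt d F
  have hkE : (finrank F (FK hK)).Prime := by rw [FK.finrank_eq hK]; exact Nat.prime_two
  obtain ⟨δ, a, H⟩ : ∃ (δ : FK hK) (a : F), HermExt (d := d) δ a := by
    have hns : ∃ k : FK hK, ¬ ∀ u v, H2.sympBilin d F (k • u) v = H2.sympBilin d F u (k • v) := by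
      by_contra hall
      push Not at hall
      exact hKns fun k hk u v => by
        have := hall (FK.mk hK k hk) u v
        rw [H2.sympBilin_apply, H2.sympBilin_apply, FK.smul_eq, FK.smul_eq] at this
        exact this
    obtain ⟨k, hk⟩ := hns
    obtain ⟨k₁, hk₁, hadj⟩ := hKf _ (k : ↥K).2
    let k' : FK hK := FK.mk hK k₁ hk₁
    have hadj' : ∀ u v, H2.sympBilin d F (k • u) v = H2.sympBilin d F u (k' • v) := fun u v => by
      simp only [H2.sympBilin_apply, FK.smul_eq]
      exact hadj u v
    have hanti : ∀ u v, H2.sympBilin d F ((k - k') • u) v = -H2.sympBilin d F u ((k - k') • v) := fun u v => by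
      rw [sub_smul, sub_smul, map_sub, map_sub, LinearMap.sub_apply]
      linear_combination hadj' u v - hadj' v u + hA.neg_eq v (k' • u) - hA.neg_eq u (k • v)
    let L : Subalgebra F (FK hK) :=
      { carrier := {c | ∀ u v, H2.sympBilin d F (c • u) v = H2.sympBilin d F u (c • v)}
        mul_mem' := fun {b c} hb hc u v => by rw [← smul_smul, hb, hc, smul_smul, mul_comm c b]
        add_mem' := fun {b c} hb hc u v => by rw [add_smul, add_smul, map_add, LinearMap.add_apply, hb, hc, map_add]
        algebraMap_mem' := fun x u v => by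
          rw [algebraMap_smul, algebraMap_smul, map_smul, map_smul, LinearMap.smul_apply] }
    haveI := Subalgebra.isSimpleOrder_of_finrank_prime F (FK hK) hkE
    have hL : L = ⊥ := (eq_bot_or_eq_top L).resolve_right fun h => hk (show k ∈ L from h ▸ Algebra.mem_top)
    have hsq : (k - k') * (k - k') ∈ L := fun u v => by rw [← smul_smul, hanti, hanti, neg_neg, smul_smul]
    rw [hL] at hsq
    obtain ⟨a, ha⟩ := Algebra.mem_bot.1 hsq
    refine ⟨k - k', a, h2, ha, hanti, fun hmem => hk ?_, FK.finrank_eq hK⟩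
    obtain ⟨x, hx⟩ := hmem
    have hx0 : x = 0 := by
      obtain ⟨v, hv⟩ := exists_ne (0 : Fin d ⊕ Fin d → F)
      obtain ⟨w, hw⟩ : ∃ w, H2.sympBilin d F v w ≠ 0 := by
        by_contra hall
        push Not at hall
        exact hv ((H2.sympBilin_nondegenerate d F).1 v hall)
      have h := hanti v w
      rw [← hx, algebraMap_smul, algebraMap_smul, map_smul, map_smul, LinearMap.smul_apply, smul_eq_mul] at h
      have h' : (2 : F) * (x * H2.sympBilin d F v w) = 0 := by linear_combination h
      exact ((mul_eq_zero.1 ((mul_eq_zero.1 h').resolve_left h2)).resolve_right hw)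
    rw [hx0, map_zero, eq_comm, sub_eq_zero] at hx
    intro u v
    rw [hadj', ← hx]
  constructor
  · intro Hall
    by_contra hr2
    by_cases hr : (r : F) = 0
    · have hrpp : r = p := ((Nat.prime_dvd_prime_iff_eq (Fact.out : p.Prime) hrp).1
        ((CharP.cast_eq_zero_iff F p r).1 hr)).symm
      subst hrpp
      obtain ⟨g, hg, hgr, hgd⟩ := exists_transvection (F := F) (d := d) (by omega) (p := r)
      refine not_all_fix hg hgr (fun z hz => ?_) (fun h hh hhK hhr hdim => ?_) Hall
      · rw [hz] at hgd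
        rcases moved_scalar (F := F) (d := d) (z := z) with h | h <;> omega
      rw [hgd] at hdim
      rcases linear_or_semilinear Nat.prime_two hK hhK hhr with hlin | ⟨hrk, -⟩
      · have := dvd_finrank_stable (E := FK hK) (W := H97.movedSpace (gop h)) fun a w => smul_mem_moved hlin a w
        rw [FK.finrank_eq hK, hdim, Nat.dvd_one] at this
        omega
      · exact hr2 hrk
    obtain ⟨i, hid, hqi⟩ := H.dvd_index (fun g hg => mem_normalizer_of_semilinear hK fun a => ⟨a, hg a⟩) hr hΩ
    set o := orderOf (Nat.card F : ZMod r) with ho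
    obtain ⟨j, hj⟩ : 2 ∣ Nat.lcm 2 o := Nat.dvd_lcm_left _ _
    have hqq : (Nat.card F : ZMod r) ^ (2 * (i + 1)) = 1 := by
      rw [mul_comm, pow_mul, hqi, neg_sq, ← pow_mul, mul_comm, pow_mul, neg_one_sq, one_pow]
    have hDi := lcm_dvd_index hqq
    rw [← ho] at hDi
    have hji : j ∣ i + 1 := (Nat.mul_dvd_mul_iff_left two_pos).1 (hj ▸ hDi)
    have hjpos : 0 < j := by
      have := Nat.lcm_pos two_pos (H97.orderOf_pos_zmod (F := F) hr)
      rw [← ho] at this
      omega
    have hjle : j ≤ i + 1 := Nat.le_of_dvd (by omega) hji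
    have hbad : (Nat.card F : ZMod r) ^ j ≠ (-1) ^ j := by
      intro h
      obtain ⟨t, ht⟩ := hji
      rw [ht, pow_mul, h, ← pow_mul] at hqi
      have hne : (1 : ZMod r) ≠ -1 := fun h1 => hr2 (by
        have h2' : ((2 : ℕ) : ZMod r) = 0 := by push_cast; linear_combination h1
        exact (Nat.prime_dvd_prime_iff_eq hrp Nat.prime_two).1 ((ZMod.natCast_eq_zero_iff _ _).1 h2'))
      rcases neg_one_pow_eq_or (ZMod r) (j * t) with h1 | h1 <;> rw [h1] at hqi
      · exact hne hqi
      · rw [neg_neg] at hqi; exact hne hqi.symm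
    obtain ⟨g, hg, hgr, hgd⟩ := exists_moved (F := F) (d := d) (r := r) hr (by rw [← ho, hj]; omega)
    rw [← ho, hj] at hgd
    refine not_all_fix hg hgr (fun z hz => ?_) (fun h hh hhK hhr hdim => ?_) Hall
    · have hz1 : z = 1 := by
        have hzr : gop (g ^ r) = 1 := by rw [hgr, gop_one]
        rw [gop_pow, hz, smul_pow, one_pow] at hzr
        rcases scalar_sp (by omega) hg hz with h | h
        · exact h
        · rw [h, (hrp.odd_of_ne_two hr2).neg_one_pow] at hzr
          have h1 := congrFun (LinearMap.congr_fun hzr fun _ => 1) (Sum.inl ⟨0, by omega⟩)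
          simp only [LinearMap.smul_apply, Module.End.one_apply, Pi.smul_apply, smul_eq_mul, mul_one] at h1
          rw [h, h1]
      rw [hz, hz1, one_smul, H97.movedSpace, sub_self, LinearMap.range_zero, finrank_bot] at hgd
      omega
    rw [hgd] at hdim
    rcases linear_or_semilinear Nat.prime_two hK hhK hhr with hlin | ⟨hrk, -⟩
    · exact no_linear_piece H hr hj hjpos hbad hh hhr hlin hdim
    · exact hr2 hrk
  · rintro rfl x hx ⟨z, hz⟩ -
    rw [scalar_iff, gop_pow] at hz
    have hzz : z = 1 ∨ z = -1 := scalar_sp (by omega) (pow_mem hx 2) (by rw [gop_pow]; exact hz)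
    suffices ∃ y ∈ subalgebraNormalizer K, ∃ h ∈ Cfsg.spGL d F, h⁻¹ * x * h = y by
      obtain ⟨y, hyK, h, hh, hxy⟩ := this
      exact ⟨h, hh, hxy ▸ hyK⟩
    rcases hzz with rfl | rfl
    · rw [one_smul] at hz
      haveI : Fact (Nat.Prime 2) := ⟨Nat.prime_two⟩
      have hnd : H97.NondegOn (H2.sympBilin d F) (⊤ : Submodule F (Fin d ⊕ Fin d → F)) :=
        fun v _ h => (H2.sympBilin_nondegenerate d F).1 v fun w => h w Submodule.mem_top
      obtain ⟨-, hm⟩ :=
        H97.nondegOn_fixed_moved (r := 2) _ hA.isRefl hnd (by exact_mod_cast h2) (gop x) hz (sp_gop hx)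
      obtain ⟨l, hl⟩ := hm.even_finrank hA
      have hsum := finrank_fixed_add_moved (gop x)
      obtain ⟨y, hyS, hylin, hyy, hyd⟩ := exists_unitary_involution H (l := l) (by omega)
      have hsum' := finrank_fixed_add_moved (gop y)
      exact ⟨y, mem_normalizer_of_semilinear hK fun a => ⟨a, hylin a⟩, conj_sq_one h2 hx hyS hz hyy (by omega)⟩
    · obtain ⟨y, hyS, hys, hyy⟩ := exists_semilinear_neg H
      exact ⟨y, mem_normalizer_of_semilinear hK fun a => ⟨a ^ Fintype.card F, hys a⟩,
        conj_sq_neg h2 hx hyS hz hyy⟩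

end Cfsg.Agent.H98.ExtEl
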