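import Cfsg.Agent.H98.ExtElusive.Basic
import Cfsg.Agent.H98.MaximalSp
import Cfsg.Agent.H97.SympElusive
import Cfsg.Agent.H2.Center

/-!
# Symplectic elements of prime order with small moved space
-/

set_option autoImplicit false
set_option linter.unusedSectionVars false

namespace Cfsg.Agent.H98.ExtEl

open Module
open scoped Matrix

variable {F : Type*} [Field F] [Fintype F] {d : ℕ}

theorem sp_gop {g : GL (Fin d ⊕ Fin d) F} (hg : g ∈ Cfsg.spGL d F) (u v : Fin d ⊕ Fin d → F) :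
    H2.sympBilin d F (gop g u) (gop g v) = H2.sympBilin d F u v := by
  rw [Matrix.toLin'_apply, Matrix.toLin'_apply]
  exact mem_spGL.1 hg u v

theorem mem_sp_of_gop {g : GL (Fin d ⊕ Fin d) F}
    (h : ∀ u v, H2.sympBilin d F (gop g u) (gop g v) = H2.sympBilin d F u v) : g ∈ Cfsg.spGL d F :=
  mem_spGL.2 fun u v => by rw [← Matrix.toLin'_apply, ← Matrix.toLin'_apply]; exact h u v

theorem scalar_iff (g : GL (Fin d ⊕ Fin d) F) (z : F) :
    (g : Matrix (Fin d ⊕ Fin d) (Fin d ⊕ Fin d) F) = z • (1 : Matrix (Fin d ⊕ Fin d) (Fin d ⊕ Fin d) F) ↔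
      gop g = z • 1 := by
  rw [← Matrix.toLin'.injective.eq_iff, map_smul, Matrix.toLin'_one, Module.End.one_eq_id]

theorem scalar_sp (hd : 1 ≤ d) {g : GL (Fin d ⊕ Fin d) F} (hg : g ∈ Cfsg.spGL d F) {z : F}
    (hz : gop g = z • 1) : z = 1 ∨ z = -1 := by
  let v : Fin d ⊕ Fin d → F := Pi.single (.inr ⟨0, hd⟩) 1
  let w : Fin d ⊕ Fin d → F := Pi.single (.inl ⟨0, hd⟩) 1
  have h1 : H2.sympBilin d F v w = 1 := by simp [v, w, H2.sympForm_single_inr]
  have h := sp_gop hg v w
  rw [hz] at h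
  simp only [LinearMap.smul_apply, Module.End.one_apply, map_smul, smul_eq_mul, h1, mul_one] at h
  exact mul_self_eq_one_iff.1 h

theorem finrank_V : finrank F (Fin d ⊕ Fin d → F) = 2 * d := by
  rw [Module.finrank_fintype_fun_eq_card, Fintype.card_sum, Fintype.card_fin, two_mul]

theorem moved_scalar {z : F} :
    finrank F (H97.movedSpace (z • (1 : End F (Fin d ⊕ Fin d → F)))) = 0 ∨
      finrank F (H97.movedSpace (z • (1 : End F (Fin d ⊕ Fin d → F)))) = 2 * d := by
  by_cases hz : z = 1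
  · left
    rw [hz, one_smul, H97.movedSpace, sub_self, LinearMap.range_zero, finrank_bot]
  · right
    have : H97.movedSpace (z • (1 : End F (Fin d ⊕ Fin d → F))) = ⊤ := by
      refine LinearMap.range_eq_top.2 fun v => ⟨(z - 1)⁻¹ • v, ?_⟩
      rw [LinearMap.sub_apply, LinearMap.smul_apply, Module.End.one_apply, smul_smul, ← sub_smul, ← sub_one_mul,
        mul_inv_cancel₀ (sub_ne_zero.2 hz), one_smul]
    rw [this, finrank_top, finrank_V]

/-- A transvection. -/
theorem exists_transvection (hd : 1 ≤ d) {p : ℕ} [Fact p.Prime] [CharP F p] :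
    ∃ g ∈ Cfsg.spGL d F, g ^ p = 1 ∧ finrank F (H97.movedSpace (gop g)) = 1 := by
  let v : Fin d ⊕ Fin d → F := Pi.single (.inl ⟨0, hd⟩) 1
  let w : Fin d ⊕ Fin d → F := Pi.single (.inr ⟨0, hd⟩) 1
  have h1 : H2.sympBilin d F w v = 1 := by simp [v, w, H2.sympForm_single_inr]
  have hg : ∀ x, gop (spTrans v (1 : F)) x = x + H2.sympBilin d F x v • v := fun x => by
    rw [Matrix.toLin'_apply, spTrans_mulVec, one_mul]
  refine ⟨spTrans v 1, spTrans_mem v 1, gop_inj ?_, ?_⟩
  · rw [gop_pow, gop_one]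
    refine LinearMap.ext fun x => ?_
    have hk : ∀ k : ℕ, (gop (spTrans v (1 : F)) ^ k) x = x + ((k : F) * H2.sympBilin d F x v) • v := by
      intro k
      induction k with
      | zero => simp
      | succ k ih =>
        rw [pow_succ', Module.End.mul_apply, ih, hg, map_add, map_smul, LinearMap.add_apply,
          LinearMap.smul_apply, smul_eq_mul, H2.sympBilin_isAlt d F v, mul_zero, add_zero, Nat.cast_succ]
        module
    rw [hk, CharP.cast_eq_zero, zero_mul, zero_smul, add_zero, Module.End.one_apply]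
  · have : H97.movedSpace (gop (spTrans v (1 : F))) = Submodule.span F {v} := by
      apply le_antisymm
      · rintro _ ⟨x, rfl⟩
        rw [LinearMap.sub_apply, Module.End.one_apply, hg, add_sub_cancel_left]
        exact Submodule.smul_mem _ _ (Submodule.mem_span_singleton_self v)
      · rw [Submodule.span_singleton_le_iff_mem]
        exact ⟨w, by rw [LinearMap.sub_apply, Module.End.one_apply, hg, h1, one_smul, add_sub_cancel_left]⟩
    rw [this, finrank_span_singleton]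
    simp [v]

/-- Elements of order `r` with the least moved space. -/
theorem exists_moved {r : ℕ} [Fact r.Prime] (hr : (r : F) ≠ 0)
    (hD : Nat.lcm 2 (orderOf (Nat.card F : ZMod r)) ≤ 2 * d) :
    ∃ g ∈ Cfsg.spGL d F, g ^ r = 1 ∧
      finrank F (H97.movedSpace (gop g)) = Nat.lcm 2 (orderOf (Nat.card F : ZMod r)) := by
  obtain ⟨f, hf, hfr, hfd⟩ := H97.exists_isometry_moved (r := r) hr 1 (Fin d ⊕ Fin d → F) (H2.sympBilin d F)
    (H2.sympBilin_nondegenerate d F) (H2.sympBilin_isAlt d F) (by rw [mul_one, finrank_V]; exact hD)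
  obtain ⟨g, hg⟩ := exists_gl f (fun a b h => by
    have h1 := congrArg (⇑(f ^ (r - 1))) h
    rw [← Module.End.mul_apply, ← Module.End.mul_apply, ← pow_succ,
      Nat.sub_add_cancel (Fact.out : r.Prime).one_le, hfr] at h1
    exact h1)
  refine ⟨g, mem_sp_of_gop (fun u v => by rw [hg]; exact hf u v), gop_inj (by rw [gop_pow, hg, hfr, gop_one]), ?_⟩
  rw [hg, hfd, mul_one]

/-- A witness has no conjugate normalising the field. -/
theorem not_all_fix {K : Subalgebra F (Matrix (Fin d ⊕ Fin d) (Fin d ⊕ Fin d) F)} {r : ℕ}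
    {g : GL (Fin d ⊕ Fin d) F} (hg : g ∈ Cfsg.spGL d F) (hgr : g ^ r = 1) (hns : ∀ z : F, gop g ≠ z • 1)
    (hbad : ∀ h ∈ Cfsg.spGL d F, h ∈ Cfsg.Geo.subalgebraNormalizer K → h ^ r = 1 →
      finrank F (H97.movedSpace (gop h)) ≠ finrank F (H97.movedSpace (gop g))) :
    ¬ ∀ x ∈ Cfsg.spGL d F,
      (∃ z : F, ((x ^ r : GL (Fin d ⊕ Fin d) F) : Matrix (Fin d ⊕ Fin d) (Fin d ⊕ Fin d) F) =
        z • (1 : Matrix (Fin d ⊕ Fin d) (Fin d ⊕ Fin d) F)) →
      (∀ z : F, (x : Matrix (Fin d ⊕ Fin d) (Fin d ⊕ Fin d) F) ≠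
        z • (1 : Matrix (Fin d ⊕ Fin d) (Fin d ⊕ Fin d) F)) →
      ∃ h ∈ Cfsg.spGL d F, h⁻¹ * x * h ∈ Cfsg.Geo.subalgebraNormalizer K := by
  intro H
  obtain ⟨h, hh, hK⟩ := H g hg ⟨1, by rw [hgr, one_smul, Units.val_one]⟩ fun z hz => hns z ((scalar_iff g z).1 hz)
  refine hbad _ (mul_mem (mul_mem (inv_mem hh) hg) hh) hK ?_ (finrank_moved_conj h g)
  have h1 : (MulAut.conj h⁻¹ g) ^ r = 1 := by rw [← map_pow, hgr, map_one]
  simpa [MulAut.conj_apply] using h1

end Cfsg.Agent.H98.ExtEl
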