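import Cfsg.Agent.H98.ExtElusive.Classes
import Cfsg.Agent.H58.ExtField.Sp
import Cfsg.Agent.H2.Card

/-!
# Alternating forms over an extension field behind a symplectic space
-/

set_option autoImplicit false
set_option linter.unusedSectionVars false
set_option linter.style.haveILetI false

namespace Cfsg.Agent.H98.ExtEl

open Module
open LinearMap (BilinForm)
open scoped Matrix

variable {F : Type*} [Field F] [Fintype F] {d : ℕ}
variable {E : Type*} [Field E] [Fintype E] [Algebra F E]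
  [Module E (Fin d ⊕ Fin d → F)] [IsScalarTower F E (Fin d ⊕ Fin d → F)]

/-- The hypotheses on the extension. -/
structure SympExt (fE : BilinForm E (Fin d ⊕ Fin d → F)) : Prop where
  trace : ∀ x y c, Algebra.trace F E (fE x y * c) = H2.sympBilin d F (c • x) y
  halt : ∀ (c : E) x, H2.sympBilin d F (c • x) x = 0

/-- The form over the extension exists. -/
theorem exists_sympExt
    (hsa : ∀ (c : E) (x y : Fin d ⊕ Fin d → F), H2.sympBilin d F (c • x) y = H2.sympBilin d F x (c • y))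
    (halt : ∀ (c : E) x, H2.sympBilin d F (c • x) x = 0) :
    ∃ fE : BilinForm E (Fin d ⊕ Fin d → F), SympExt fE := by
  obtain ⟨fE, h⟩ := H58.ExtField.exists_form (m := d) hsa
  exact ⟨fE, h, halt⟩

variable {fE : BilinForm E (Fin d ⊕ Fin d → F)}

theorem SympExt.eq_trace (H : SympExt fE) (x y : Fin d ⊕ Fin d → F) :
    H2.sympBilin d F x y = Algebra.trace F E (fE x y) := by
  conv_lhs => rw [← one_smul E x, ← H.trace, mul_one]

theorem SympExt.isAlt (H : SympExt fE) : fE.IsAlt := fun x =>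
  H58.ExtField.eq_zero_of_trace (F := F) fun c => by rw [H.trace, H.halt]

theorem SympExt.restrict_nondeg (H : SympExt fE) (W : Submodule E (Fin d ⊕ Fin d → F))
    (hW : H97.NondegOn (H2.sympBilin d F) (W.restrictScalars F)) : H97.NondegOn fE W := fun v hv h =>
  hW v hv fun w hw => by rw [H.eq_trace, h w hw, map_zero]

theorem SympExt.nondegOn_top (H : SympExt fE) : H97.NondegOn fE ⊤ := fun v _ h =>
  (H2.sympBilin_nondegenerate d F).1 v fun w => by rw [H.eq_trace, h w Submodule.mem_top, map_zero]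

theorem SympExt.nondegenerate (H : SympExt fE) : fE.Nondegenerate := by
  refine ⟨fun v h => H.nondegOn_top v Submodule.mem_top fun w _ => h w,
    fun v h => H.nondegOn_top v Submodule.mem_top fun w _ => ?_⟩
  rw [← H.isAlt.neg_eq, h, neg_zero]

/-- Stable non-degenerate subspaces have dimension divisible by twice the degree. -/
theorem SympExt.dvd_nondeg_stable (H : SympExt fE) {W : Submodule F (Fin d ⊕ Fin d → F)}
    (hW : ∀ (a : E) (w : Fin d ⊕ Fin d → F), w ∈ W → a • w ∈ W) (hn : H97.NondegOn (H2.sympBilin d F) W) :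
    2 * finrank F E ∣ finrank F W := by
  haveI : Module.Finite E (Fin d ⊕ Fin d → F) := Module.Finite.of_finite
  let W' : Submodule E (Fin d ⊕ Fin d → F) :=
    { carrier := W, add_mem' := W.add_mem', zero_mem' := W.zero_mem', smul_mem' := fun a w hw => hW a w hw }
  have hn' : H97.NondegOn fE W' := H.restrict_nondeg W' hn
  obtain ⟨j, hj⟩ := hn'.even_finrank H.isAlt
  refine ⟨j, ?_⟩
  rw [show finrank F W = finrank F W' from rfl, ← Module.finrank_mul_finrank F E W', hj]
  ring

/-- The dimension over the extension. -/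
theorem SympExt.exists_std (H : SympExt fE) :
    ∃ (m : ℕ) (e : (Fin d ⊕ Fin d → F) ≃ₗ[E] (Fin m ⊕ Fin m → E)), d = finrank F E * m ∧
      ∀ x y, Cfsg.sympForm m E (e x) (e y) = fE x y := by
  haveI : Module.Finite E (Fin d ⊕ Fin d → F) := Module.Finite.of_finite
  obtain ⟨m, e, hm, he⟩ := H2.exists_equiv_std fE H.nondegenerate H.isAlt
  refine ⟨m, e, ?_, he⟩
  have h := Module.finrank_mul_finrank F E (Fin d ⊕ Fin d → F)
  rw [hm, finrank_V, mul_left_comm] at h
  omega

/-- Extension-linear symplectic matrices as elements of the symplectic group. -/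
theorem SympExt.exists_embedding (H : SympExt fE) {m : ℕ}
    (e : (Fin d ⊕ Fin d → F) ≃ₗ[E] (Fin m ⊕ Fin m → E)) (he : ∀ x y, Cfsg.sympForm m E (e x) (e y) = fE x y) :
    ∃ φ : Matrix.symplecticGroup (Fin m) E →* GL (Fin d ⊕ Fin d) F, Function.Injective φ ∧
      (∀ A, φ A ∈ Cfsg.spGL d F) ∧
      ∀ (A : Matrix.symplecticGroup (Fin m) E) v,
        gop (φ A) v = e.symm ((A : Matrix (Fin m ⊕ Fin m) (Fin m ⊕ Fin m) E) *ᵥ e v) := by
  let ρ : Matrix.symplecticGroup (Fin m) E → End F (Fin d ⊕ Fin d → F) := fun A =>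
    (e.symm.toLinearMap ∘ₗ Matrix.toLin' (A : Matrix (Fin m ⊕ Fin m) (Fin m ⊕ Fin m) E) ∘ₗ e.toLinearMap).restrictScalars F
  have hρ : ∀ A v, ρ A v = e.symm ((A : Matrix (Fin m ⊕ Fin m) (Fin m ⊕ Fin m) E) *ᵥ e v) := fun A v => by
    simp [ρ]
  have hmul : ∀ A B, ρ (A * B) = ρ A * ρ B := fun A B => LinearMap.ext fun v => by
    rw [Module.End.mul_apply, hρ, hρ, hρ, e.apply_symm_apply, Matrix.mulVec_mulVec]; rfl
  have h1 : ρ 1 = 1 := LinearMap.ext fun v => by
    rw [hρ, OneMemClass.coe_one, Matrix.one_mulVec, e.symm_apply_apply]; rfl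
  let ρh : Matrix.symplecticGroup (Fin m) E →* GL (Fin d ⊕ Fin d) F :=
    (Units.map (Matrix.toLinAlgEquiv' (R := F) (n := Fin d ⊕ Fin d)).symm.toAlgHom.toRingHom.toMonoidHom).comp
      (MonoidHom.mk ⟨ρ, h1⟩ hmul).toHomUnits
  have hgop : ∀ A, gop (ρh A) = ρ A := fun A => Matrix.toLin'_toMatrix' _
  refine ⟨ρh, fun A B h => ?_, fun A => mem_sp_of_gop fun u v => ?_, fun A v => by rw [hgop, hρ]⟩
  · refine Subtype.ext (Matrix.ext_of_mulVec_single fun i => e.symm.injective ?_)
    have := congrArg (fun g => gop g (e.symm (Pi.single i 1))) h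
    simpa [hgop, hρ] using this
  · rw [hgop, hρ, hρ, H.eq_trace, H.eq_trace, ← he, e.apply_symm_apply, e.apply_symm_apply,
      H2.mem_symplecticGroup_iff.1 A.2, he]

theorem relIndex_mul_card_dvd_of_le {G : Type*} [Group G] [Finite G] {N S U : Subgroup G} (hUN : U ≤ N)
    (hUS : U ≤ S) : N.relIndex S * Nat.card U ∣ Nat.card S := by
  have h1 : U.relIndex S * Nat.card U = Nat.card S := by
    rw [Subgroup.relIndex, ← Nat.card_congr (Subgroup.subgroupOfEquivOfLe hUS).toEquiv]
    exact (U.subgroupOf S).index_mul_card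
  rw [← h1]
  exact Nat.mul_dvd_mul_right (Subgroup.relIndex_dvd_of_le_left S hUN) _

omit [Fintype E] [Algebra F E] in
theorem card_sp_eq [Finite F] (m : ℕ) : Nat.card (Cfsg.spGL m F) =
    Nat.card F ^ (m ^ 2) * ∏ i ∈ Finset.range m, (Nat.card F ^ (2 * (i + 1)) - 1) := by
  rw [← H2.card_sp]
  refine Nat.card_congr (Equiv.ofBijective (fun g => (⟨(g.1 : Matrix (Fin m ⊕ Fin m) (Fin m ⊕ Fin m) F),
    H2.mem_symplecticGroup_iff.2 fun u v => g.2 u v⟩ : Matrix.symplecticGroup (Fin m) F))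
    ⟨fun a b h => Subtype.ext (Units.ext (congrArg (fun x => (x : Matrix.symplecticGroup (Fin m) F).1) h)),
      fun A => ?_⟩)
  let u := (MonoidHom.toHomUnits (Submonoid.subtype (Matrix.symplecticGroup (Fin m) F))) A
  exact ⟨⟨u, fun x y => H2.mem_symplecticGroup_iff.1 A.2 x y⟩, rfl⟩

/-- The congruence attached to a prime dividing the index. -/
theorem SympExt.dvd_index (H : SympExt fE) (hk : (finrank F E).Prime) {N : Subgroup (GL (Fin d ⊕ Fin d) F)}
    (hlin : ∀ g : GL (Fin d ⊕ Fin d) F, (∀ (a : E) (v : Fin d ⊕ Fin d → F), gop g (a • v) = a • gop g v) → g ∈ N)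
    {r : ℕ} [Fact r.Prime] (hr : (r : F) ≠ 0) (hΩ : r ∣ N.relIndex (Cfsg.spGL d F)) :
    ∃ i, i < d ∧ ¬ finrank F E ∣ i + 1 ∧ (Nat.card F : ZMod r) ^ (2 * (i + 1)) = 1 := by
  classical
  set k := finrank F E with hkdef
  obtain ⟨m, e, hd, he⟩ := H.exists_std
  rw [← hkdef] at hd
  obtain ⟨φ, hφ, hφS, hφv⟩ := H.exists_embedding e he
  have hU : φ.range ≤ N := by
    rintro _ ⟨A, rfl⟩
    refine hlin _ fun a v => ?_
    rw [hφv, hφv, map_smul, Matrix.mulVec_smul, map_smul]
  have hUS : φ.range ≤ Cfsg.spGL d F := by rintro _ ⟨A, rfl⟩; exact hφS A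
  have h := relIndex_mul_card_dvd_of_le hU hUS
  rw [← Nat.card_congr (MonoidHom.ofInjective hφ).toEquiv, H2.card_sp, card_sp_eq,
    Module.natCard_eq_pow_finrank (K := F) (V := E)] at h
  set q := Nat.card F
  have hq : 1 < q := Finite.one_lt_card
  set P := ∏ i ∈ (Finset.range d).filter (fun i => ¬ k ∣ i + 1), (q ^ (2 * (i + 1)) - 1)
  set Q := ∏ j ∈ Finset.range m, ((q ^ k) ^ (2 * (j + 1)) - 1)
  have hsplit : ∏ i ∈ Finset.range d, (q ^ (2 * (i + 1)) - 1) = P * Q := by
    rw [← Finset.prod_filter_mul_prod_filter_not (Finset.range d) (fun i => ¬ k ∣ i + 1)]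
    congr 1
    refine Finset.prod_bij' (fun i _ => (i + 1) / k - 1) (fun j _ => k * (j + 1) - 1) ?_ ?_ ?_ ?_ ?_
    · intro i hi
      simp only [Finset.mem_filter, Finset.mem_range, not_not] at hi
      obtain ⟨c, hc⟩ := hi.2
      rw [Finset.mem_range, hc, Nat.mul_div_cancel_left _ hk.pos]
      have : c ≤ m := Nat.le_of_mul_le_mul_left (by omega) hk.pos
      rcases c with - | c <;> omega
    · intro j hj
      rw [Finset.mem_range] at hj
      simp only [Finset.mem_filter, Finset.mem_range, not_not]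
      have h1 : k * (j + 1) ≤ k * m := Nat.mul_le_mul_left k hj
      have h2 : 1 ≤ k * (j + 1) := Nat.mul_pos hk.pos (by omega)
      exact ⟨by omega, by rw [Nat.sub_add_cancel h2]; exact dvd_mul_right _ _⟩
    · intro i hi
      simp only [Finset.mem_filter, Finset.mem_range, not_not] at hi
      obtain ⟨c, hc⟩ := hi.2
      rw [hc, Nat.mul_div_cancel_left _ hk.pos]
      rcases c with - | c
      · omega
      · rw [Nat.add_sub_cancel, ← hc]; omega
    · intro j _
      have h2 : 1 ≤ k * (j + 1) := Nat.mul_pos hk.pos (by omega)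
      rw [Nat.sub_add_cancel h2, Nat.mul_div_cancel_left _ hk.pos]; omega
    · intro i hi
      simp only [Finset.mem_filter, Finset.mem_range, not_not] at hi
      obtain ⟨c, hc⟩ := hi.2
      rw [hc, Nat.mul_div_cancel_left _ hk.pos, ← pow_mul]
      rcases c with - | c
      · omega
      · rw [Nat.add_sub_cancel]; congr 2; ring
  rw [hsplit] at h
  have hQ : Q ≠ 0 := Finset.prod_ne_zero_iff.2 fun j _ => by
    have : 1 < (q ^ k) ^ (2 * (j + 1)) := Nat.one_lt_pow (by omega) (Nat.one_lt_pow hk.ne_zero hq)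
    omega
  have h2 : (N.relIndex (Cfsg.spGL d F) * (q ^ k) ^ (m ^ 2)) * Q ∣ q ^ (d ^ 2) * P * Q := by
    convert h using 1 <;> ring
  have h3 := (dvd_mul_of_dvd_left hΩ _).trans ((mul_dvd_mul_iff_right hQ).1 h2)
  have hrq : ¬ r ∣ q := fun h => H97.natCard_ne_zero_zmod hr ((ZMod.natCast_eq_zero_iff _ _).2 h)
  obtain ⟨i, hi, hri⟩ := ((Fact.out : r.Prime).prime.dvd_finsetProd_iff _).1
    (((Fact.out : r.Prime).dvd_mul.1 h3).resolve_left fun h => hrq ((Fact.out : r.Prime).dvd_of_dvd_pow h))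
  simp only [Finset.mem_filter, Finset.mem_range] at hi
  refine ⟨i, hi.1, hi.2, ?_⟩
  rw [← Nat.cast_one (R := ZMod r), ← Nat.cast_pow, ZMod.natCast_eq_natCast_iff]
  exact ((Nat.modEq_iff_dvd' (Nat.one_le_pow _ _ (by omega))).2 hri).symm

end Cfsg.Agent.H98.ExtEl
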